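import Mathlib

/-! A double cover of the alternating group inside a Clifford group over three elements. -/

set_option autoImplicit false
set_option linter.unusedSectionVars false

namespace CfsgLib.AltSpin

open Equiv
open scoped commutatorElement

/-- The space of bit vectors. -/
abbrev Bits (n : ℕ) := Fin n → Bool

/-- Operators. -/
abbrev Op (n : ℕ) (R : Type) [Field R] := Module.End R (Bits n → R)

variable {n : ℕ} {R : Type} [Field R]

theorem op_mul_neg (a b : Op n R) : a * -b = -(a * b) := mul_neg a b

theorem op_neg_mul (a b : Op n R) : -a * b = -(a * b) := neg_mul a b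

theorem op_neg_one_smul (a : Op n R) : (-1 : R) • a = -a := neg_one_smul R a

theorem op_neg_one_mul (a : Op n R) : (-1 : Op n R) * a = -a := neg_one_mul a

/-- Flip one bit. -/
def flip (i : Fin n) (v : Bits n) : Bits n := Function.update v i (!v i)

theorem flip_flip (i : Fin n) (v : Bits n) : flip i (flip i v) = v := by
  funext j; by_cases h : j = i
  · subst h; simp [flip]
  · simp [flip, h]

theorem flip_comm (i j : Fin n) (v : Bits n) : flip i (flip j v) = flip j (flip i v) := by
  funext k
  by_cases hij : i = j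
  · subst hij; rfl
  by_cases hi : k = i
  · subst hi; simp [flip, hij]
  · by_cases hj : k = j
    · subst hj; simp [flip, hi]
    · simp [flip, hi, hj]

/-- The sign of the bits in a set. -/
def sgn (S : Finset (Fin n)) (v : Bits n) : R := ∏ j ∈ S, if v j then -1 else 1

theorem sgn_sq (S : Finset (Fin n)) (v : Bits n) : sgn S v * sgn S v = (1 : R) := by
  rw [sgn, ← Finset.prod_mul_distrib]
  exact Finset.prod_eq_one fun j _ => by split_ifs <;> ring

theorem sgn_flip (S : Finset (Fin n)) (i : Fin n) (v : Bits n) :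
    (sgn S (flip i v) : R) = if i ∈ S then -sgn S v else sgn S v := by
  split_ifs with h
  · rw [sgn, sgn, ← Finset.mul_prod_erase S _ h, ← Finset.mul_prod_erase S _ h, ← neg_mul]
    congr 1
    · cases hv : v i <;> simp [flip, hv]
    · exact Finset.prod_congr rfl fun j hj => by simp [flip, Finset.ne_of_mem_erase hj]
  · exact Finset.prod_congr rfl fun j hj => by simp [flip, show j ≠ i from fun e => h (e ▸ hj)]

/-- A signed bit flip. -/
def flipOp (S : Finset (Fin n)) (i : Fin n) : Op n R where
  toFun f v := sgn S v * f (flip i v)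
  map_add' f g := funext fun v => mul_add _ _ _
  map_smul' r f := funext fun v => by simp [mul_left_comm]

/-- A diagonal sign operator. -/
def diagOp (S : Finset (Fin n)) : Op n R where
  toFun f v := sgn S v * f v
  map_add' f g := funext fun v => mul_add _ _ _
  map_smul' r f := funext fun v => by simp [mul_left_comm]

/-- Generators. -/
def gam (i : Fin n) : Op n R := flipOp (Finset.univ.filter fun j => j < i) i

/-- Right generators. -/
def del (i : Fin n) : Op n R := flipOp (Finset.univ.filter fun j => i < j) i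

/-- The parity. -/
def par (n : ℕ) (R : Type) [Field R] : Op n R := diagOp Finset.univ

theorem gam_sq (i : Fin n) : gam i * gam i = (1 : Op n R) := by
  refine LinearMap.ext fun f => funext fun v => ?_
  show sgn _ v * (sgn _ (flip i v) * f (flip i (flip i v))) = f v
  rw [flip_flip, sgn_flip, if_neg (by simp), ← mul_assoc, sgn_sq, one_mul]

theorem gam_anti {i k : Fin n} (h : i ≠ k) : (gam i * gam k : Op n R) = -(gam k * gam i) := by
  refine LinearMap.ext fun f => funext fun v => ?_
  show sgn _ v * (sgn _ (flip i v) * f (flip k (flip i v))) = -(sgn _ v * (sgn _ (flip k v) * f (flip i (flip k v))))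
  rw [flip_comm k i, sgn_flip, sgn_flip]
  rcases lt_or_gt_of_ne h with h' | h'
  · rw [if_pos (by simp [h']), if_neg (by simp [h'.le])]; ring
  · rw [if_neg (by simp [h'.le]), if_pos (by simp [h'])]; ring

theorem gam_del (i k : Fin n) : (gam i * del k : Op n R) = del k * gam i := by
  refine LinearMap.ext fun f => funext fun v => ?_
  show sgn _ v * (sgn _ (flip i v) * f (flip k (flip i v))) = sgn _ v * (sgn _ (flip k v) * f (flip i (flip k v)))
  rw [flip_comm k i, sgn_flip, sgn_flip]
  by_cases h : k < i
  · rw [if_pos (by simp [h]), if_pos (by simp [h])]; ring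
  · rw [if_neg (by simpa using not_lt.1 h), if_neg (by simpa using not_lt.1 h)]; ring

theorem gam_par (i : Fin n) : (gam i : Op n R) * par n R = -(par n R * gam i) := by
  refine LinearMap.ext fun f => funext fun v => ?_
  show sgn _ v * (sgn _ (flip i v) * f (flip i v)) = -(sgn _ v * (sgn _ v * f (flip i v)))
  rw [sgn_flip, if_pos (Finset.mem_univ i)]
  ring

/-- The sign of a permutation in the coefficient ring. -/
def eps (σ : Perm (Fin n)) : R := ((Perm.sign σ : ℤˣ) : ℤ)

theorem eps_mul (σ τ : Perm (Fin n)) : (eps (σ * τ) : R) = eps σ * eps τ := by simp [eps]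

theorem eps_sq (σ : Perm (Fin n)) : eps σ * eps σ = (1 : R) := by
  rcases Int.units_eq_one_or (Perm.sign σ) with h | h <;> simp [eps, h]

theorem eps_inv (σ : Perm (Fin n)) : (eps σ⁻¹ : R) = eps σ := by simp [eps, Perm.sign_inv]

/-- Operators inducing a given permutation of the generators. -/
def Good (u : (Op n R)ˣ) (σ : Perm (Fin n)) : Prop :=
  (∀ k, (u : Op n R) * gam k = (eps σ : R) • (gam (σ k) * (u : Op n R))) ∧ (∀ k, (u : Op n R) * del k = del k * (u : Op n R)) ∧
    (u : Op n R) * par n R = (eps σ : R) • (par n R * (u : Op n R))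

theorem good_one : Good (1 : (Op n R)ˣ) (1 : Perm (Fin n)) := by simp [Good, eps]

theorem good_mul {u w : (Op n R)ˣ} {σ τ : Perm (Fin n)} (h₁ : Good u σ) (h₂ : Good w τ) : Good (u * w) (σ * τ) := by
  refine ⟨fun k => ?_, fun k => ?_, ?_⟩ <;> rw [Units.val_mul]
  · rw [mul_assoc, h₂.1, mul_smul_comm, ← mul_assoc, h₁.1, smul_mul_assoc, smul_smul, eps_mul, mul_comm (eps τ), mul_assoc,
      Perm.mul_apply]
  · rw [mul_assoc, h₂.2.1, ← mul_assoc, h₁.2.1, mul_assoc]
  · rw [mul_assoc, h₂.2.2, mul_smul_comm, ← mul_assoc, h₁.2.2, smul_mul_assoc, smul_smul, eps_mul, mul_comm (eps τ), mul_assoc]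

theorem smul_eq_imp {ε : R} (hε : ε * ε = 1) {A B : Op n R} (h : A = ε • B) : B = ε • A := by
  rw [h, smul_smul, hε, one_smul]

theorem good_inv {u : (Op n R)ˣ} {σ : Perm (Fin n)} (h : Good u σ) : Good u⁻¹ σ⁻¹ := by
  refine ⟨fun k => ?_, fun k => ?_, ?_⟩
  · have e := h.1 (σ⁻¹ k)
    simp only [Perm.coe_inv, Equiv.apply_symm_apply] at e
    have e' := smul_eq_imp (eps_sq σ) e
    rw [eps_inv]
    calc (↑u⁻¹ : Op n R) * gam k = ↑u⁻¹ * (gam k * ↑u) * ↑u⁻¹ := by
          rw [mul_assoc, mul_assoc, Units.mul_inv, mul_one]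
      _ = ↑u⁻¹ * ((eps σ : R) • (↑u * gam (σ.symm k))) * ↑u⁻¹ := by rw [e']
      _ = (eps σ : R) • (gam (σ⁻¹ k) * ↑u⁻¹) := by
          rw [mul_smul_comm, smul_mul_assoc, ← mul_assoc, Units.inv_mul, one_mul]; rfl
  · exact ((show Commute (u : Op n R) (del k) from h.2.1 k).units_inv_left).eq
  · have e' := smul_eq_imp (eps_sq σ) h.2.2
    rw [eps_inv]
    calc (↑u⁻¹ : Op n R) * par n R = ↑u⁻¹ * (par n R * ↑u) * ↑u⁻¹ := by rw [mul_assoc, mul_assoc, Units.mul_inv, mul_one]
      _ = ↑u⁻¹ * ((eps σ : R) • (↑u * par n R)) * ↑u⁻¹ := by rw [e']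
      _ = (eps σ : R) • (par n R * ↑u⁻¹) := by rw [mul_smul_comm, smul_mul_assoc, ← mul_assoc, Units.inv_mul, one_mul]

/-- The lifted transposition. -/
def refl (i j : Fin n) : Op n R := gam i - gam j

theorem refl_sq (h3 : (3 : R) = 0) {i j : Fin n} (h : i ≠ j) : refl i j * refl i j = (-1 : Op n R) := by
  rw [refl, sub_mul, mul_sub, mul_sub, gam_sq, gam_sq, gam_anti h]
  have : (2 : R) • (1 : Op n R) = -1 := by rw [show (2 : R) = -1 by linear_combination h3, op_neg_one_smul]
  rw [← this, two_smul]
  abel

/-- The lifted transposition as a unit. -/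
def reflU (h3 : (3 : R) = 0) {i j : Fin n} (h : i ≠ j) : (Op n R)ˣ :=
  ⟨refl i j, -refl i j, by rw [op_mul_neg, refl_sq h3 h, neg_neg], by rw [op_neg_mul, refl_sq h3 h, neg_neg]⟩

theorem good_refl (h3 : (3 : R) = 0) {i j : Fin n} (h : i ≠ j) : Good (reflU h3 h) (swap i j) := by
  have he : (eps (swap i j) : R) = -1 := by simp [eps, Perm.sign_swap h]
  refine ⟨fun k => ?_, fun k => ?_, ?_⟩ <;> show refl i j * _ = _
  · rw [he, op_neg_one_smul]
    show refl i j * gam k = -(gam (swap i j k) * refl i j)
    by_cases hi : k = i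
    · subst hi
      rw [swap_apply_left, refl, sub_mul, mul_sub, gam_sq, gam_sq]
      abel
    · by_cases hj : k = j
      · subst hj
        rw [swap_apply_right, refl, sub_mul, mul_sub, gam_sq, gam_sq]
        abel
      · rw [swap_apply_of_ne_of_ne hi hj, refl, sub_mul, mul_sub, gam_anti (Ne.symm hi), gam_anti (Ne.symm hj)]
        abel
  · show refl i j * del k = del k * refl i j
    rw [refl, sub_mul, mul_sub, gam_del, gam_del]
  · rw [he, op_neg_one_smul]
    show refl i j * par n R = -(par n R * refl i j)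
    rw [refl, sub_mul, mul_sub, gam_par, gam_par]
    abel

theorem exists_good (h3 : (3 : R) = 0) (σ : Perm (Fin n)) : ∃ u : (Op n R)ˣ, Good u σ := by
  induction σ using Perm.swap_induction_on with
  | one => exact ⟨1, good_one⟩
  | swap_mul f x y hxy ih =>
    obtain ⟨u, hu⟩ := ih
    exact ⟨_, good_mul (good_refl h3 hxy) hu⟩

theorem diag_commute {i : Fin n} {u : Op n R} (hg : u * gam i = gam i * u) (hd : u * del i = del i * u) :
    u * diagOp (R := R) (Finset.univ.erase i) = diagOp (R := R) (Finset.univ.erase i) * u := by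
  have hS : (Finset.univ.erase i) = (Finset.univ.filter fun j => j < i) ∪ (Finset.univ.filter fun j => i < j) := by
    ext j; simp
  have e : diagOp (R := R) (Finset.univ.erase i) = gam i * del i := by
    refine LinearMap.ext fun f => funext fun v => ?_
    show sgn _ v * f v = sgn _ v * (sgn _ (flip i v) * f (flip i (flip i v)))
    rw [flip_flip, sgn_flip, if_neg (by simp), ← mul_assoc]
    congr 1
    rw [hS, sgn, sgn, sgn, Finset.prod_union]
    rw [Finset.disjoint_filter]
    exact fun j _ h1 h2 => lt_asymm h1 h2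
  rw [e, ← mul_assoc, hg, mul_assoc, hd, mul_assoc]

theorem kernel_scalar (h3 : (3 : R) = 0) {u : (Op n R)ˣ} (h : Good u 1) : ∃ c : R, (u : Op n R) = c • (1 : Op n R) := by
  classical
  have he : (eps (1 : Perm (Fin n)) : R) = 1 := by simp [eps]
  have hg : ∀ k, (u : Op n R) * gam k = gam k * (u : Op n R) := fun k => by simpa [he] using h.1 k
  have hp : (u : Op n R) * par n R = par n R * (u : Op n R) := by simpa [he] using h.2.2
  have hoff : ∀ v w : Bits n, v ≠ w → (u : Op n R) (Pi.single v (1 : R)) w = 0 := by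
    intro v w hvw
    have key : ∀ S : Finset (Fin n), (u : Op n R) * diagOp (R := R) S = diagOp (R := R) S * (u : Op n R) →
        (sgn S v : R) ≠ sgn S w → (u : Op n R) (Pi.single v (1 : R)) w = 0 := by
      intro S hS hne
      have e := congrArg (fun f : Op n R => f (Pi.single v (1 : R)) w) hS
      have hsingle : diagOp (R := R) S (Pi.single v (1 : R)) = (sgn S v : R) • (Pi.single v (1 : R) : Bits n → R) := by
        funext x
        show sgn S x * (Pi.single v (1 : R) : Bits n → R) x = sgn S v * (Pi.single v (1 : R) : Bits n → R) x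
        by_cases hx : x = v
        · rw [hx]
        · rw [Pi.single_eq_of_ne hx, mul_zero, mul_zero]
      simp only [Module.End.mul_apply, hsingle, map_smul, Pi.smul_apply, smul_eq_mul] at e
      change (sgn S v : R) * _ = (sgn S w : R) * _ at e
      exact (mul_eq_zero.1 (show ((sgn S v : R) - sgn S w) * (u : Op n R) (Pi.single v (1 : R)) w = 0 by
        rw [sub_mul, e, sub_self])).resolve_left (sub_ne_zero.2 hne)
    by_cases hall : (sgn Finset.univ v : R) = sgn Finset.univ w
    swap
    · exact key _ hp hall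
    obtain ⟨i, hi⟩ := Function.ne_iff.1 hvw
    refine key _ (diag_commute (hg i) (h.2.1 i)) fun e => ?_
    rw [sgn, sgn, ← Finset.mul_prod_erase _ _ (Finset.mem_univ i), ← Finset.mul_prod_erase _ _ (Finset.mem_univ i)] at hall
    rw [show (∏ j ∈ Finset.univ.erase i, if v j then (-1 : R) else 1) = sgn (Finset.univ.erase i) v from rfl,
      show (∏ j ∈ Finset.univ.erase i, if w j then (-1 : R) else 1) = sgn (Finset.univ.erase i) w from rfl, e] at hall
    have h1 := congrArg (· * sgn (Finset.univ.erase i) w) hall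
    simp only [mul_assoc, sgn_sq, mul_one] at h1
    have hne : (1 : R) ≠ -1 := fun e => one_ne_zero (α := R) (by linear_combination h3 - e)
    revert h1 hi
    cases v i <;> cases w i <;> simp [hne, hne.symm]
  let c : Bits n → R := fun v => (u : Op n R) (Pi.single v (1 : R)) v
  have hu : ∀ (f : Bits n → R) (w : Bits n), (u : Op n R) f w = f w * c w := by
    intro f w
    conv_lhs => rw [pi_eq_sum_univ' f]
    rw [map_sum, Finset.sum_apply, Finset.sum_eq_single w]
    · rw [map_smul]; rfl
    · intro v _ hv
      rw [map_smul, Pi.smul_apply, hoff v w hv, smul_zero]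
    · simp
  have hstep : ∀ i v, c (flip i v) = c v := by
    intro i v
    have e := congrArg (fun f : Op n R => f (fun _ => (1 : R)) v) (hg i)
    simp only [Module.End.mul_apply, hu] at e
    change (sgn _ v * 1) * c v = sgn _ v * ((u : Op n R) (fun _ => (1 : R)) (flip i v)) at e
    rw [hu, one_mul, mul_one] at e
    exact (mul_left_cancel₀ (left_ne_zero_of_mul_eq_one (sgn_sq _ v)) e).symm
  have hconst : ∀ (k : ℕ) (v : Bits n), (Finset.univ.filter fun i => v i = true).card = k → c v = c fun _ => false := by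
    intro k
    induction k with
    | zero =>
      intro v hv
      congr 1
      funext i
      have := Finset.card_eq_zero.1 hv
      simpa using Finset.eq_empty_iff_forall_notMem.1 this i
    | succ k ih =>
      intro v hv
      obtain ⟨i, hi⟩ := Finset.card_pos.1 (show 0 < (Finset.univ.filter fun i => v i = true).card by omega)
      rw [← hstep i v]
      refine ih _ ?_
      rw [show (Finset.univ.filter fun j => flip i v j = true) = (Finset.univ.filter fun j => v j = true).erase i by
        ext j
        by_cases hj : j = i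
        · subst hj; simp [flip, (Finset.mem_filter.1 hi).2]
        · simp [flip, Function.update_apply, hj]]
      rw [Finset.card_erase_of_mem hi, hv, Nat.add_sub_cancel]
  refine ⟨c fun _ => false, LinearMap.ext fun f => funext fun w => ?_⟩
  rw [hu, hconst _ w rfl, mul_comm]
  rfl

/-- The cover. -/
def cover (n : ℕ) (R : Type) [Field R] : Subgroup ((Op n R)ˣ × alternatingGroup (Fin n)) where
  carrier := {p | Good p.1 (p.2 : Perm (Fin n))}
  one_mem' := good_one
  mul_mem' := good_mul
  inv_mem' := good_inv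

set_option maxHeartbeats 800000 in
theorem main (n : ℕ) (hn : 4 ≤ n) : ∃ (Γ : Type) (_ : Group Γ) (_ : Finite Γ) (z : Γ) (_ : z ∈ Subgroup.center Γ),
    orderOf z = 2 ∧ z ∈ commutator Γ ∧ ∃ _ : (Subgroup.zpowers z).Normal,
      Nonempty (Γ ⧸ Subgroup.zpowers z ≃* alternatingGroup (Fin n)) := by
  classical
  have h3 : (3 : ZMod 3) = 0 := ZMod.natCast_self 3
  haveI : Finite (Op n (ZMod 3)) := Finite.of_injective (fun f : Op n (ZMod 3) => (f : (Bits n → ZMod 3) → Bits n → ZMod 3)) DFunLike.coe_injective
  haveI : Finite (Op n (ZMod 3))ˣ := Finite.of_injective _ Units.val_injective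
  have hneg : Good (-1 : (Op n (ZMod 3))ˣ) (1 : Perm (Fin n)) := by simp [Good, eps]
  let z : cover n (ZMod 3) := ⟨(-1, 1), hneg⟩
  have hz1 : z ≠ 1 := by
    intro e
    have h1 : (((z : cover n (ZMod 3)) : (Op n (ZMod 3))ˣ × alternatingGroup (Fin n)).1 : Op n (ZMod 3)) (fun _ => 1) (fun _ => false) = 1 := by
      rw [e]; rfl
    revert h1
    show (-1 : ZMod 3) = 1 → False
    decide
  have hzc : z ∈ Subgroup.center (cover n (ZMod 3)) := Subgroup.mem_center_iff.2 fun g =>
    Subtype.ext (Prod.ext (Units.ext (by simp [z])) (by simp [z]))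
  have hz2 : orderOf z = 2 := orderOf_eq_prime (Subtype.ext (Prod.ext (Units.ext (by
    push_cast
    show ((-1 : (Op n (ZMod 3))ˣ) ^ 2 : (Op n (ZMod 3))ˣ).val = _
    rw [pow_two, Units.val_mul, Units.val_neg, Units.val_one, op_neg_one_mul, neg_neg]
    rfl)) (by simp [z, pow_two]))) hz1
  let π : cover n (ZMod 3) →* alternatingGroup (Fin n) := (MonoidHom.snd _ _).comp (cover n (ZMod 3)).subtype
  have hsur : Function.Surjective π := fun σ => by
    obtain ⟨u, hu⟩ := exists_good h3 (σ : Perm (Fin n))
    exact ⟨⟨(u, σ), hu⟩, rfl⟩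
  have hker : π.ker = Subgroup.zpowers z := by
    refine le_antisymm ?_ (Subgroup.zpowers_le.2 rfl)
    rintro ⟨⟨u, σ⟩, hu⟩ hk
    have hσ : σ = 1 := hk
    subst hσ
    obtain ⟨c, hc⟩ := kernel_scalar h3 hu
    have hc0 : c ≠ 0 := fun e => by
      rw [e, zero_smul] at hc
      have h := u.mul_inv
      rw [hc, zero_mul] at h
      have h1 := congrArg (fun f : Op n (ZMod 3) => f (fun _ => (1 : ZMod 3)) (fun _ => false)) h
      exact zero_ne_one (α := ZMod 3) h1
    have hcases : ∀ x : ZMod 3, x ≠ 0 → x = 1 ∨ x = -1 := by decide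
    simp only at hc
    rcases hcases c hc0 with e | e
    · rw [show (⟨(u, 1), hu⟩ : cover n (ZMod 3)) = 1 from
        Subtype.ext (Prod.ext (Units.ext (by show (u : Op n (ZMod 3)) = _; rw [hc, e, one_smul]; rfl)) rfl)]
      exact Subgroup.one_mem _
    · rw [show (⟨(u, 1), hu⟩ : cover n (ZMod 3)) = z from
        Subtype.ext (Prod.ext (Units.ext (by show (u : Op n (ZMod 3)) = _; rw [hc, e, op_neg_one_smul]; rfl)) rfl)]
      exact Subgroup.mem_zpowers z
  haveI hZn : (Subgroup.zpowers z).Normal := hker ▸ MonoidHom.normal_ker π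
  refine ⟨cover n (ZMod 3), inferInstance, inferInstance, z, hzc, hz2, ?_, hZn, ?_⟩
  · let a : Fin n := ⟨0, by omega⟩
    let b : Fin n := ⟨1, by omega⟩
    let c : Fin n := ⟨2, by omega⟩
    let d : Fin n := ⟨3, by omega⟩
    have hab : a ≠ b := by simp [a, b]
    have hcd : c ≠ d := by simp [c, d]
    have hac : a ≠ c := by simp [a, c]
    have hbd : b ≠ d := by simp [b, d]
    have had : a ≠ d := by simp [a, d]
    have hbc : b ≠ c := by simp [b, c]
    let x : cover n (ZMod 3) := ⟨(reflU h3 hab * reflU h3 hcd, ⟨swap a b * swap c d, by simp [Perm.mem_alternatingGroup, Perm.sign_swap, hab, hcd]⟩),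
      good_mul (good_refl h3 hab) (good_refl h3 hcd)⟩
    let y : cover n (ZMod 3) := ⟨(reflU h3 hac * reflU h3 hbd, ⟨swap a c * swap b d, by simp [Perm.mem_alternatingGroup, Perm.sign_swap, hac, hbd]⟩),
      good_mul (good_refl h3 hac) (good_refl h3 hbd)⟩
    set σ := swap a b * swap c d with hσ
    set r : Op n (ZMod 3) := ((reflU h3 hab * reflU h3 hcd : (Op n (ZMod 3))ˣ) : Op n (ZMod 3)) with hr
    have hx := good_mul (good_refl h3 hab) (good_refl h3 hcd)
    have heps : (eps σ : ZMod 3) = 1 := by simp [σ, eps, Perm.sign_swap, hab, hcd]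
    have hmove : ∀ k, r * gam k = gam (σ k) * r := fun k => by have := hx.1 k; rwa [heps, one_smul] at this
    have e1 : σ a = b := by
      simp [σ, swap_apply_of_ne_of_ne hac had]
    have e2 : σ b = a := by simp [σ, swap_apply_of_ne_of_ne hbc hbd]
    have e3 : σ c = d := by simp [σ, swap_apply_of_ne_of_ne (Ne.symm had) (Ne.symm hbd)]
    have e4 : σ d = c := by simp [σ, swap_apply_of_ne_of_ne (Ne.symm hac) (Ne.symm hbc)]
    have h1 : r * refl a c = refl b d * r := by rw [refl, refl, mul_sub, sub_mul, hmove, hmove, e1, e3]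
    have h2 : r * refl b d = refl a c * r := by rw [refl, refl, mul_sub, sub_mul, hmove, hmove, e2, e4]
    have hbd' : (refl b d * refl a c : Op n (ZMod 3)) = -(refl a c * refl b d) := by
      rw [refl, refl, sub_mul, mul_sub, mul_sub, sub_mul, mul_sub, mul_sub, gam_anti (Ne.symm hab), gam_anti hbc,
        gam_anti (Ne.symm had), gam_anti (Ne.symm hcd)]
      abel
    have key : x * y = z * (y * x) := by
      refine Subtype.ext (Prod.ext (Units.ext ?_) ?_)
      · show r * (refl a c * refl b d) = (-1 : Op n (ZMod 3)) * ((refl a c * refl b d) * r)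
        rw [← mul_assoc, h1, mul_assoc, h2, ← mul_assoc, hbd', op_neg_one_mul, op_neg_mul]
      · refine Subtype.ext ?_
        show σ * (swap a c * swap b d) = 1 * ((swap a c * swap b d) * σ)
        have f1 : σ * swap a c = swap b d * σ := by rw [Equiv.mul_swap_eq_swap_mul, e1, e3]
        have f2 : σ * swap b d = swap a c * σ := by rw [Equiv.mul_swap_eq_swap_mul, e2, e4]
        have f3 : swap b d * swap a c = swap a c * swap b d :=
          (Equiv.Perm.Disjoint.commute (by
            intro k
            by_cases hk : k = b ∨ k = d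
            · rcases hk with rfl | rfl
              · exact Or.inr (swap_apply_of_ne_of_ne (Ne.symm hab) hbc)
              · exact Or.inr (swap_apply_of_ne_of_ne (Ne.symm had) (Ne.symm hcd))
            · push Not at hk
              exact Or.inl (swap_apply_of_ne_of_ne hk.1 hk.2))).eq
        rw [one_mul, ← mul_assoc, f1, mul_assoc, f2, ← mul_assoc, f3]
    have : ⁅x, y⁆ = z := by rw [commutatorElement_def, key]; group
    rw [← this, commutator_def]
    exact Subgroup.commutator_mem_commutator (Subgroup.mem_top x) (Subgroup.mem_top y)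
  · exact ⟨(QuotientGroup.quotientMulEquivOfEq hker.symm).trans (QuotientGroup.quotientKerEquivOfSurjective π hsur)⟩

end CfsgLib.AltSpin
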