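import Cfsg.Agent.Lib.Schur.Core
import Mathlib.GroupTheory.IsPerfect

/-! Consequences of the free presentation of the Schur multiplier. -/

set_option autoImplicit false

namespace CfsgLib.Schur

open Subgroup
open scoped commutatorElement

universe u v w

/-- Homomorphisms from a perfect group into a central extension agree if they agree downstairs. -/
theorem hom_eq_of_perfect {P X Y : Type*} [Group P] [Group X] [Group Y]
    (hP : _root_.commutator P = ⊤) (ξ : X →* Y) (hc : ξ.ker ≤ center X) {η₁ η₂ : P →* X}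
    (h : ξ.comp η₁ = ξ.comp η₂) : η₁ = η₂ := by
  have hz : ∀ p : P, η₁ p * (η₂ p)⁻¹ ∈ center X := fun p => hc (by
    rw [MonoidHom.mem_ker, map_mul, map_inv, ← MonoidHom.comp_apply, h, MonoidHom.comp_apply, mul_inv_cancel])
  have hle : (_root_.commutator P) ≤ η₁.eqLocus η₂ := by
    rw [_root_.commutator_def, commutator_le]
    intro a _ b _
    show η₁ ⁅a, b⁆ = η₂ ⁅a, b⁆
    rw [map_commutatorElement, map_commutatorElement]
    obtain ⟨u, hu, eu⟩ : ∃ u ∈ center X, η₁ a = u * η₂ a := ⟨_, hz a, by group⟩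
    obtain ⟨v, hv, ev⟩ : ∃ v ∈ center X, η₁ b = v * η₂ b := ⟨_, hz b, by group⟩
    have cu : ∀ w : X, w * u = u * w := fun w => mem_center_iff.mp hu w
    have cv : ∀ w : X, w * v = v * w := fun w => mem_center_iff.mp hv w
    rw [eu, ev, commutatorElement_def, commutatorElement_def, mul_inv_rev, mul_inv_rev]
    calc u * η₂ a * (v * η₂ b) * ((η₂ a)⁻¹ * u⁻¹) * ((η₂ b)⁻¹ * v⁻¹)
        = u * (η₂ a * v) * η₂ b * (η₂ a)⁻¹ * u⁻¹ * (η₂ b)⁻¹ * v⁻¹ := by group
      _ = u * (v * η₂ a) * η₂ b * (η₂ a)⁻¹ * u⁻¹ * (η₂ b)⁻¹ * v⁻¹ := by rw [cv]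
      _ = (u * (v * (η₂ a * η₂ b * (η₂ a)⁻¹))) * u⁻¹ * (η₂ b)⁻¹ * v⁻¹ := by group
      _ = ((v * (η₂ a * η₂ b * (η₂ a)⁻¹)) * u) * u⁻¹ * (η₂ b)⁻¹ * v⁻¹ := by rw [cu]
      _ = (v * (η₂ a * η₂ b * (η₂ a)⁻¹ * (η₂ b)⁻¹)) * v⁻¹ := by group
      _ = ((η₂ a * η₂ b * (η₂ a)⁻¹ * (η₂ b)⁻¹) * v) * v⁻¹ := by rw [cv (η₂ a * η₂ b * (η₂ a)⁻¹ * (η₂ b)⁻¹)]
      _ = η₂ a * η₂ b * (η₂ a)⁻¹ * (η₂ b)⁻¹ := by group
  rw [hP] at hle
  exact MonoidHom.ext fun p => hle (mem_top p)

/-- The commutator subgroup of a group generated by `a`, `b` and central elements. -/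
theorem commutator_le_zpowers' {E : Type*} [Group E] {a b : E} {Z : Subgroup E} (hZ : Z ≤ center E)
    (hgen : closure ({a, b} : Set E) ⊔ Z = ⊤) (ha : a * ⁅b, a⁆ * a⁻¹ = ⁅b, a⁆)
    (hb : b * ⁅b, a⁆ * b⁻¹ = ⁅b, a⁆ ∨ b * ⁅b, a⁆ * b⁻¹ = ⁅b, a⁆⁻¹) :
    _root_.commutator E ≤ zpowers ⁅b, a⁆ := by
  set c := ⁅b, a⁆ with hc
  have hn : (zpowers c).Normal := by
    refine normalizer_eq_top_iff.mp (top_le_iff.mp ?_)
    rw [← hgen]
    have key : ∀ g : E, (g * c * g⁻¹ = c ∨ g * c * g⁻¹ = c⁻¹) → g ∈ normalizer (zpowers c : Set E) := by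
      intro g hg
      have hmap : (zpowers c).map (MulAut.conj g).toMonoidHom = zpowers c := by
        rw [MonoidHom.map_zpowers]
        rcases hg with h | h
        · show zpowers (g * c * g⁻¹) = _; rw [h]
        · show zpowers (g * c * g⁻¹) = _; rw [h, zpowers_inv]
      refine Subgroup.mem_normalizer_iff.mpr fun x => ?_
      conv_rhs => rw [← hmap]
      constructor
      · exact fun hx => ⟨x, hx, rfl⟩
      · rintro ⟨y, hy, hyx⟩; exact (MulAut.conj g).injective hyx ▸ hy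
    refine sup_le ((closure_le _).mpr ?_) (fun z hz => key z (Or.inl ?_))
    · rintro g (rfl | rfl)
      · exact key _ (Or.inl ha)
      · exact key _ hb
    · rw [← mem_center_iff.mp (hZ hz) c, mul_inv_cancel_right]
  set π := QuotientGroup.mk' (zpowers c)
  have hab : π b * π a = π a * π b := by
    rw [← commutatorElement_eq_one_iff_mul_comm, ← map_commutatorElement]
    exact (QuotientGroup.eq_one_iff _).mpr (mem_zpowers c)
  have hgen' : ∀ g : E, π g ∈ closure (π '' ({a, b} ∪ (Z : Set E))) := fun g => by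
    rw [← MonoidHom.map_closure]
    refine mem_map_of_mem _ ?_
    rw [Subgroup.closure_union, closure_eq, hgen]; exact mem_top g
  haveI : IsMulCommutative (closure (π '' ({a, b} ∪ (Z : Set E)))) := by
    refine isMulCommutative_closure ?_
    have hz : ∀ z ∈ Z, ∀ g : E, π g * π z = π z * π g := fun z hz g => by
      rw [← map_mul, ← map_mul, mem_center_iff.mp (hZ hz) g]
    rintro _ ⟨x, hx, rfl⟩ _ ⟨y, hy, rfl⟩
    rcases hx with (rfl | rfl) | hx <;> rcases hy with (rfl | rfl) | hy <;>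
      first
        | rfl
        | exact hab
        | exact hab.symm
        | exact hz _ hy _
        | exact (hz _ hx _).symm
  rw [_root_.commutator_def, commutator_le]
  intro x _ y _
  refine (QuotientGroup.eq_one_iff _).mp ?_
  show π ⁅x, y⁆ = 1
  rw [map_commutatorElement, commutatorElement_eq_one_iff_mul_comm]
  exact congrArg Subtype.val (this.is_comm.comm (⟨π x, hgen' x⟩ : closure (π '' ({a, b} ∪ (Z : Set E)))) ⟨π y, hgen' y⟩)

theorem commutator_le_zpowers {E : Type*} [Group E] {a b : E} {Z : Subgroup E} (hZ : Z ≤ center E)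
    (hgen : closure ({a, b} : Set E) ⊔ Z = ⊤) (ha : a * ⁅b, a⁆ * a⁻¹ = ⁅b, a⁆)
    (hb : b * ⁅b, a⁆ * b⁻¹ = ⁅b, a⁆⁻¹) : _root_.commutator E ≤ zpowers ⁅b, a⁆ :=
  commutator_le_zpowers' hZ hgen ha (Or.inr hb)

/-- Preimages of generators generate the source together with the kernel. -/
theorem closure_sup_ker {G : Type*} [Group G] {E : Type*} [Group E] (π : E →* G) {a b : E}
    (h : closure ({π a, π b} : Set G) = ⊤) : closure ({a, b} : Set E) ⊔ π.ker = ⊤ := by
  refine eq_top_iff.mpr fun e _ => ?_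
  have : π e ∈ (closure ({a, b} : Set E)).map π := by
    rw [MonoidHom.map_closure, Set.image_pair, h]; exact mem_top _
  obtain ⟨x, hx, hxe⟩ := this
  rw [show e = x * (x⁻¹ * e) by group]
  exact mul_mem (mem_sup_left hx) (mem_sup_right (by rw [MonoidHom.mem_ker, map_mul, map_inv, hxe, inv_mul_cancel]))

/-- A bound for the multiplier when the commutator subgroup of the source is cyclic. -/
theorem card_mult_dvd {G : Type u} [Group G] {ι : Type v} (f : ι → G) {c : Src f} (hE : _root_.commutator (Src f) ≤ zpowers c)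
    {n : ℕ} (hn : c ^ n = 1) : Nat.card (mult f) ∣ n / orderOf (proj f c) := by
  have hdn : orderOf (proj f c) ∣ n := orderOf_dvd_of_pow_eq_one (by rw [← map_pow, hn, map_one])
  have hle : mult f ≤ zpowers (c ^ orderOf (proj f c)) := by
    intro m hm
    obtain ⟨i, rfl⟩ := mem_zpowers_iff.mp (hE hm.2)
    have h1 : proj f (c ^ i) = 1 := hm.1
    rw [map_zpow, ← orderOf_dvd_iff_zpow_eq_one] at h1
    obtain ⟨j, rfl⟩ := h1
    exact mem_zpowers_iff.mpr ⟨j, by rw [← zpow_natCast, ← zpow_mul]⟩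
  refine (card_dvd_of_le hle).trans ?_
  rw [Nat.card_zpowers]
  exact orderOf_dvd_of_pow_eq_one (by rw [← pow_mul, Nat.mul_div_cancel' hdn, hn])

/-- The dihedral/dicyclic pattern. -/
theorem card_mult_dvd_of_inverting {G : Type u} [Group G] {ι : Type v} (f : ι → G)
    (hf : closure (Set.range f) = ⊤) (x y : G) (hgen : closure ({x, y} : Set G) = ⊤)
    (hy : y * x * y⁻¹ = x⁻¹) (n : ℕ) (hn : y * x ^ n = x ^ n * y) (hxn : x ^ (2 * n) = 1)
    (hxny : x ^ n = 1 ∨ x ^ n = y ^ 2) :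
    Nat.card (mult f) ∣ n / orderOf ((x ^ 2)⁻¹) := by
  obtain ⟨a, ha⟩ := proj_surjective f hf x
  obtain ⟨b, hb⟩ := proj_surjective f hf y
  obtain ⟨z, hz, ez⟩ : ∃ z ∈ center (Src f), b * a * b⁻¹ = a⁻¹ * z :=
    ⟨a * (b * a * b⁻¹), ker_le_center f (by rw [MonoidHom.mem_ker, map_mul, map_mul, map_mul, map_inv, ha, hb, hy, mul_inv_cancel]), by group⟩
  have cz : ∀ w : Src f, w * z = z * w := fun w => mem_center_iff.mp hz w
  have hban : b * a ^ n = a ^ n * b := by
    rcases hxny with h | h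
    · exact mem_center_iff.mp (ker_le_center f (by rw [MonoidHom.mem_ker, map_pow, ha, h])) b
    · obtain ⟨w, hw, ew⟩ : ∃ w ∈ center (Src f), a ^ n = b ^ 2 * w :=
        ⟨(b ^ 2)⁻¹ * a ^ n, ker_le_center f (by rw [MonoidHom.mem_ker, map_mul, map_inv, map_pow, map_pow, ha, hb, h, inv_mul_cancel]), by group⟩
      rw [ew]
      calc b * (b ^ 2 * w) = b ^ 2 * (b * w) := by group
        _ = b ^ 2 * (w * b) := by rw [mem_center_iff.mp hw b]
        _ = b ^ 2 * w * b := (mul_assoc _ _ _).symm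
  set c := ⁅b, a⁆ with hc
  have hcv : c = z * (a ^ 2)⁻¹ := by
    rw [hc, commutatorElement_def, ez, cz, mul_assoc, ← mul_inv_rev, ← pow_two]
  have hac : a * c * a⁻¹ = c := by
    rw [hcv, ← mul_assoc, cz]; group
  have hbc : b * c * b⁻¹ = c⁻¹ := by
    have cz' : ∀ w : Src f, w * z⁻¹ = z⁻¹ * w := fun w => mem_center_iff.mp (inv_mem hz) w
    rw [hcv]
    calc b * (z * (a ^ 2)⁻¹) * b⁻¹ = (b * z) * (a ^ 2)⁻¹ * b⁻¹ := by group
      _ = z * ((b * a * b⁻¹)⁻¹ * (b * a * b⁻¹)⁻¹) := by rw [cz b]; group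
      _ = z * ((a⁻¹ * z)⁻¹ * (a⁻¹ * z)⁻¹) := by rw [ez]
      _ = a * (z⁻¹ * a) := by group
      _ = a * (a * z⁻¹) := by rw [cz' a]
      _ = (z * (a ^ 2)⁻¹)⁻¹ := by rw [mul_inv_rev, inv_inv, pow_two, ← mul_assoc]
  have hgen' := closure_sup_ker (proj f) (a := a) (b := b) (by rw [ha, hb]; exact hgen)
  have hE := commutator_le_zpowers (ker_le_center f) hgen' hac hbc
  have hcn : c ^ n = 1 := by
    have h1 : b * a ^ n * b⁻¹ = (a ^ n)⁻¹ * z ^ n := by
      rw [← conj_pow, ez, (show Commute a⁻¹ z from cz a⁻¹).mul_pow, inv_pow]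
    rw [hban, mul_inv_cancel_right] at h1
    rw [hcv, (show Commute z (a ^ 2)⁻¹ from (cz _).symm).mul_pow, inv_pow, ← pow_mul, mul_comm 2 n, pow_mul, pow_two, mul_inv_eq_one]
    nth_rw 2 [h1]
    rw [← mul_assoc, mul_inv_cancel, one_mul]
  have := card_mult_dvd f hE hcn
  have hpc : proj f c = (x ^ 2)⁻¹ := by
    rw [hc, map_commutatorElement, ha, hb, commutatorElement_def, hy, ← mul_inv_rev, pow_two]
  rwa [hpc] at this

end CfsgLib.Schur
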