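import Cfsg.Prelude.Def_KGroupFacts
import Mathlib.GroupTheory.Schreier
import Mathlib.GroupTheory.Abelianization.Defs
import Mathlib.GroupTheory.FreeGroup.Basic
import Mathlib.GroupTheory.QuotientGroup.Finite
import Mathlib.LinearAlgebra.FreeModule.PID
import Mathlib.Algebra.Module.Projective
import Mathlib.Tactic

/-! The Schur multiplier of a finite group from a free presentation: `E = F/[R,F]`, `M = ker ∩ E'`. -/

set_option autoImplicit false

namespace CfsgLib.Schur

open Subgroup
open scoped commutatorElement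

universe u v w

variable {G : Type u} [Group G] {ι : Type v} (f : ι → G)

/-- The relation subgroup of the free presentation given by `f`. -/
def relators : Subgroup (FreeGroup ι) := (FreeGroup.lift f).ker

instance relCommNormal : (⁅relators f, (⊤ : Subgroup (FreeGroup ι))⁆).Normal := by
  haveI : (relators f).Normal := MonoidHom.normal_ker _
  exact Subgroup.commutator_normal _ _

/-- The largest central extension attached to the presentation. -/
abbrev Src := FreeGroup ι ⧸ ⁅relators f, (⊤ : Subgroup (FreeGroup ι))⁆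

/-- Its projection. -/
def proj : Src f →* G :=
  QuotientGroup.lift _ (FreeGroup.lift f) (by
    haveI : (relators f).Normal := MonoidHom.normal_ker _
    exact Subgroup.commutator_le_left _ _)

theorem proj_mk (x : FreeGroup ι) : proj f (QuotientGroup.mk x) = FreeGroup.lift f x := rfl

theorem proj_surjective (hf : closure (Set.range f) = ⊤) : Function.Surjective (proj f) := by
  intro g
  have : g ∈ (FreeGroup.lift f).range := by rw [FreeGroup.range_lift_eq_closure, hf]; exact mem_top g
  obtain ⟨x, hx⟩ := this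
  exact ⟨QuotientGroup.mk x, hx⟩

theorem ker_le_center : (proj f).ker ≤ center (Src f) := by
  intro x hx
  induction x using QuotientGroup.induction_on with
  | H x =>
    refine mem_center_iff.mpr fun y => ?_
    induction y using QuotientGroup.induction_on with
    | H y =>
      have h1 : ⁅x, y⁆ ∈ ⁅relators f, (⊤ : Subgroup (FreeGroup ι))⁆ :=
        commutator_mem_commutator (MonoidHom.mem_ker.mp hx) (mem_top y)
      rw [← QuotientGroup.eq_one_iff, ← QuotientGroup.mk'_apply, map_commutatorElement,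
        commutatorElement_eq_one_iff_mul_comm] at h1
      exact h1.symm

/-- Lifting to an arbitrary central extension. -/
theorem exists_lift {Γ : Type w} [Group Γ] {H : Type*} [Group H] (h : G →* H) (σ : Γ →* H)
    (hs : Function.Surjective σ) (hc : σ.ker ≤ center Γ) :
    ∃ φ : Src f →* Γ, σ.comp φ = h.comp (proj f) := by
  choose s hs' using hs
  let φ₀ : FreeGroup ι →* Γ := FreeGroup.lift fun i => s (h (f i))
  have hφ : σ.comp φ₀ = h.comp (FreeGroup.lift f) := FreeGroup.ext_hom _ _ fun i => by simp [φ₀, hs']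
  refine ⟨QuotientGroup.lift _ φ₀ (Subgroup.commutator_le.mpr fun r hr y _ => ?_), ?_⟩
  · have h1 : φ₀ r ∈ center Γ := hc (by
      rw [MonoidHom.mem_ker, ← MonoidHom.comp_apply, hφ, MonoidHom.comp_apply,
        MonoidHom.mem_ker.mp hr, map_one])
    rw [MonoidHom.mem_ker, map_commutatorElement, commutatorElement_eq_one_iff_mul_comm]
    exact (mem_center_iff.mp h1 _).symm
  · refine MonoidHom.ext fun x => ?_
    induction x using QuotientGroup.induction_on with
    | H x => exact DFunLike.congr_fun hφ x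

/-- The multiplier of the presentation. -/
def mult : Subgroup (Src f) := (proj f).ker ⊓ _root_.commutator (Src f)

theorem mult_le_ker : mult f ≤ (proj f).ker := inf_le_left

theorem mult_le_center : mult f ≤ center (Src f) := inf_le_left.trans (ker_le_center f)

instance multComm : IsMulCommutative (mult f) :=
  ⟨⟨fun a b => Subtype.ext ((mem_center_iff.mp (mult_le_center f a.2) b).symm)⟩⟩

instance kerComm : IsMulCommutative (proj f).ker :=
  ⟨⟨fun a b => Subtype.ext ((mem_center_iff.mp (ker_le_center f a.2) b).symm)⟩⟩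

/-- The exponent vector of an element. -/
noncomputable def expVec [Fintype ι] [DecidableEq ι] : Src f →* Multiplicative (ι → ℤ) :=
  QuotientGroup.lift _ (FreeGroup.lift fun i => Multiplicative.ofAdd (Pi.single i (1 : ℤ)))
    (Subgroup.commutator_le.mpr fun r _ y _ => by
      rw [MonoidHom.mem_ker, map_commutatorElement, commutatorElement_eq_one_iff_mul_comm]
      exact mul_comm _ _)

theorem expVec_ker_le [Fintype ι] [DecidableEq ι] : (expVec f).ker ≤ _root_.commutator (Src f) := by
  let ψ₀ : (ι → ℤ) →+ Additive (Abelianization (Src f)) :=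
    ∑ i, ((zmultiplesHom _ (Additive.ofMul (Abelianization.of (QuotientGroup.mk (FreeGroup.of i) : Src f)))).comp
      (Pi.evalAddMonoidHom (fun _ => ℤ) i))
  let ψ : Multiplicative (ι → ℤ) →* Abelianization (Src f) := AddMonoidHom.toMultiplicativeLeft ψ₀
  have key : (ψ.comp (expVec f)).comp (QuotientGroup.mk' _) =
      (Abelianization.of).comp (QuotientGroup.mk' ⁅relators f, (⊤ : Subgroup (FreeGroup ι))⁆) := by
    refine FreeGroup.ext_hom _ _ fun i => ?_
    simp [ψ, ψ₀, expVec, Pi.single_apply, Finset.sum_ite_eq', apply_ite]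
  intro x hx
  induction x using QuotientGroup.induction_on with
  | H x =>
    have h1 := DFunLike.congr_fun key x
    simp only [MonoidHom.comp_apply, QuotientGroup.mk'_apply, MonoidHom.mem_ker.mp hx, map_one] at h1
    rw [← Abelianization.ker_of]
    exact h1.symm

theorem commutator_le_expVec_ker [Fintype ι] [DecidableEq ι] :
    _root_.commutator (Src f) ≤ (expVec f).ker :=
  Abelianization.commutator_subset_ker _

section Finite

variable [Finite G] [Finite ι]

instance finiteIndex_center : (center (Src f)).FiniteIndex := by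
  haveI : (proj f).ker.FiniteIndex := by
    refine ⟨?_⟩
    rw [index_ker]
    exact Nat.card_pos.ne'
  exact finiteIndex_of_le (ker_le_center f)

instance finite_commutator : Finite (_root_.commutator (Src f)) := by
  haveI : Finite (Src f ⧸ center (Src f)) := finite_quotient_of_finiteIndex
  haveI : Finite (commutatorSet (Src f)) := by
    let F : (Src f ⧸ center (Src f)) × (Src f ⧸ center (Src f)) → Src f := fun q => ⁅q.1.out, q.2.out⁆
    refine Set.finite_coe_iff.mpr ((Set.finite_range F).subset ?_)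
    rintro _ ⟨a, b, rfl⟩
    refine ⟨(QuotientGroup.mk a, QuotientGroup.mk b), ?_⟩
    obtain ⟨za, ha⟩ := QuotientGroup.mk_out_eq_mul (center (Src f)) a
    obtain ⟨zb, hb⟩ := QuotientGroup.mk_out_eq_mul (center (Src f)) b
    have c1 : ∀ y : Src f, y * za = za * y := fun y => mem_center_iff.mp za.2 y
    have c2 : ∀ y : Src f, y * zb = zb * y := fun y => mem_center_iff.mp zb.2 y
    show ⁅(QuotientGroup.mk a : Src f ⧸ center (Src f)).out, (QuotientGroup.mk b : Src f ⧸ center (Src f)).out⁆ = ⁅a, b⁆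
    rw [ha, hb, commutatorElement_def, commutatorElement_def, mul_inv_rev, mul_inv_rev]
    calc a * za * (b * zb) * ((za : Src f)⁻¹ * a⁻¹) * ((zb : Src f)⁻¹ * b⁻¹)
        = a * ((za : Src f) * b) * zb * (za : Src f)⁻¹ * a⁻¹ * ((zb : Src f)⁻¹ * b⁻¹) := by group
      _ = a * (b * za) * zb * (za : Src f)⁻¹ * a⁻¹ * ((zb : Src f)⁻¹ * b⁻¹) := by rw [c1 b]
      _ = a * b * ((za : Src f) * zb) * (za : Src f)⁻¹ * a⁻¹ * ((zb : Src f)⁻¹ * b⁻¹) := by group
      _ = a * b * ((zb : Src f) * za) * (za : Src f)⁻¹ * a⁻¹ * ((zb : Src f)⁻¹ * b⁻¹) := by rw [c2 za]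
      _ = a * b * ((zb : Src f) * a⁻¹) * (zb : Src f)⁻¹ * b⁻¹ := by group
      _ = a * b * (a⁻¹ * zb) * (zb : Src f)⁻¹ * b⁻¹ := by rw [c2 a⁻¹]
      _ = a * b * a⁻¹ * b⁻¹ := by group
  infer_instance

instance finite_mult : Finite (mult f) :=
  Finite.of_injective (inclusion (inf_le_right : mult f ≤ _)) (inclusion_injective _)

/-- A complement of the multiplier in the kernel, inside a prescribed kernel. -/
theorem exists_complement {D : Type w} [CommGroup D] (θ : (proj f).ker →* D)
    (hθ : ∀ k, ∃ m : (proj f).ker, (m : Src f) ∈ mult f ∧ θ m = θ k) :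
    ∃ C : Subgroup (Src f), C ≤ (proj f).ker ∧ C ⊓ mult f = ⊥ ∧ C ⊔ mult f = (proj f).ker ∧
      ∀ k : (proj f).ker, (k : Src f) ∈ C → θ k = 1 := by
  classical
  haveI := Fintype.ofFinite ι
  let K := (proj f).ker
  letI : CommGroup K := { (inferInstance : Group K) with mul_comm := fun a b => (kerComm f).is_comm.comm a b }
  let ab : Additive K →ₗ[ℤ] (ι → ℤ) :=
    (AddMonoidHom.mk' (fun k => Multiplicative.toAdd (expVec f ((Additive.toMul k : K) : Src f)))
      (fun a b => by simp)).toIntLinearMap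
  let L := LinearMap.range ab
  haveI : Module.Finite ℤ L := Module.Finite.iff_fg.mpr (IsNoetherian.noetherian L)
  haveI : Module.Projective ℤ L := inferInstance
  obtain ⟨s, hs⟩ := Module.projective_lifting_property ab.rangeRestrict LinearMap.id ab.surjective_rangeRestrict
  let MA : Submodule ℤ (Additive K) := LinearMap.ker ab
  have hMA : ∀ k : Additive K, k ∈ MA ↔ ((Additive.toMul k : K) : Src f) ∈ mult f := by
    intro k
    constructor
    · intro hk
      exact ⟨(Additive.toMul k : K).2, expVec_ker_le f (MonoidHom.mem_ker.mpr (by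
        have : ab k = 0 := hk
        exact Multiplicative.toAdd.injective this))⟩
    · intro hk
      show ab k = 0
      have := MonoidHom.mem_ker.mp (commutator_le_expVec_ker f hk.2)
      simp [ab, this]
  let θA : Additive K →ₗ[ℤ] Additive D := (MonoidHom.toAdditive θ).toIntLinearMap
  let θM : MA →ₗ[ℤ] LinearMap.range θA := LinearMap.codRestrict _ (θA.comp MA.subtype) (fun m => ⟨m, rfl⟩)
  have hsurj : Function.Surjective θM := by
    rintro ⟨_, k, rfl⟩
    obtain ⟨m, hm, hmk⟩ := hθ (Additive.toMul k)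
    refine ⟨⟨Additive.ofMul m, (hMA _).mpr hm⟩, Subtype.ext ?_⟩
    show θA (Additive.ofMul m) = θA k
    simp [θA, hmk]
  obtain ⟨t, ht⟩ := Module.projective_lifting_property θM
    (LinearMap.codRestrict _ (θA.comp s) (fun l => ⟨_, rfl⟩)) hsurj
  let s' : L →ₗ[ℤ] Additive K := s - MA.subtype.comp t
  have hs' : ∀ l : L, ab (s' l) = l := by
    intro l
    have h1 : ab (t l : Additive K) = 0 := (t l).2
    have h2 : ab (s l) = l := congrArg Subtype.val (LinearMap.congr_fun hs l)
    simp [s', h1, h2]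
  have hθ' : ∀ l : L, θA (s' l) = 0 := by
    intro l
    have h1 : θA (t l : Additive K) = θA (s l) := congrArg Subtype.val (LinearMap.congr_fun ht l)
    simp [s', h1]
  let C : Subgroup (Src f) := (Subgroup.map K.subtype
    (AddMonoidHom.toMultiplicativeLeft (α := L) (β := K) s'.toAddMonoidHom).range)
  have hmem : ∀ x : Src f, x ∈ C ↔ ∃ l : L, ((Additive.toMul (s' l) : K) : Src f) = x := by
    intro x
    constructor
    · rintro ⟨_, ⟨l, rfl⟩, rfl⟩; exact ⟨Multiplicative.toAdd l, rfl⟩
    · rintro ⟨l, rfl⟩; exact ⟨_, ⟨Multiplicative.ofAdd l, rfl⟩, rfl⟩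
  refine ⟨C, map_subtype_le _, ?_, ?_, ?_⟩
  · rw [eq_bot_iff]
    rintro x ⟨hxC, hxM⟩
    obtain ⟨l, rfl⟩ := (hmem x).mp hxC
    have h1 : ab (s' l) = 0 := (hMA _).mpr hxM
    rw [hs'] at h1
    rw [Subtype.ext h1 (a1 := l) (a2 := 0), map_zero]
    exact one_mem _
  · refine le_antisymm (sup_le (map_subtype_le _) (mult_le_ker f)) fun x hx => ?_
    let k : Additive K := Additive.ofMul ⟨x, hx⟩
    have h1 : k - s' ⟨ab k, k, rfl⟩ ∈ MA := by
      show ab _ = 0
      rw [map_sub, hs', sub_self]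
    have h2 := (hMA _).mp h1
    have hxe : x = ((Additive.toMul (k - s' ⟨ab k, k, rfl⟩) : K) : Src f) *
        ((Additive.toMul (s' ⟨ab k, k, rfl⟩) : K) : Src f) := by
      rw [← Subgroup.coe_mul, ← toMul_add, sub_add_cancel]; rfl
    rw [hxe]
    exact mul_mem (mem_sup_right h2) (mem_sup_left ((hmem _).mpr ⟨_, rfl⟩))
  · intro k hk
    obtain ⟨l, hl⟩ := (hmem _).mp hk
    have h1 := hθ' l
    rw [← show (Additive.toMul (s' l) : K) = k from Subtype.ext hl]
    exact congrArg Additive.toMul h1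

/-- The quotient of the source by a complement is a finite stem extension with kernel `mult f`. -/
theorem cover_of_complement (hf : closure (Set.range f) = ⊤) {C : Subgroup (Src f)} [C.Normal]
    (hC : C ≤ (proj f).ker) (hd : C ⊓ mult f = ⊥) (hsup : C ⊔ mult f = (proj f).ker) :
    ∃ σ : Src f ⧸ C →* G, σ.comp (QuotientGroup.mk' C) = proj f ∧ Finite (Src f ⧸ C) ∧
      Cfsg.IsStemExtension σ ∧ ∃ e : mult f ≃* σ.ker, ∀ m : mult f, ((e m : σ.ker) : Src f ⧸ C) = QuotientGroup.mk (m : Src f) := by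
  let σ : Src f ⧸ C →* G := QuotientGroup.lift C (proj f) hC
  have hker : σ.ker = (mult f).map (QuotientGroup.mk' C) := by
    refine le_antisymm (fun q hq => ?_) ?_
    · induction q using QuotientGroup.induction_on with
      | H x =>
        have hx : x ∈ (proj f).ker := hq
        rw [← hsup, Subgroup.mem_sup_of_normal_left] at hx
        obtain ⟨c, hc, m, hm, rfl⟩ := hx
        refine ⟨m, hm, ?_⟩
        rw [QuotientGroup.mk'_apply, QuotientGroup.mk_mul, (QuotientGroup.eq_one_iff c).mpr hc, one_mul]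
    · rintro _ ⟨m, hm, rfl⟩; exact mult_le_ker f hm
  let e₀ : mult f →* σ.ker :=
    MonoidHom.codRestrict ((QuotientGroup.mk' C).comp (mult f).subtype) σ.ker fun m => mult_le_ker f m.2
  have he : Function.Bijective e₀ := by
    constructor
    · rw [← MonoidHom.ker_eq_bot_iff, eq_bot_iff]
      intro m hm
      have h1 : (m : Src f) ∈ C := (QuotientGroup.eq_one_iff _).mp (congrArg Subtype.val hm)
      have h2 : (m : Src f) ∈ C ⊓ mult f := ⟨h1, m.2⟩
      rw [hd] at h2
      exact Subtype.ext h2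
    · rintro ⟨q, hq⟩
      rw [hker] at hq
      obtain ⟨m, hm, rfl⟩ := hq
      exact ⟨⟨m, hm⟩, rfl⟩
  haveI : Finite σ.ker := Finite.of_surjective e₀ he.2
  haveI : Finite ((Src f ⧸ C) ⧸ σ.ker) :=
    Finite.of_injective _ (QuotientGroup.kerLift_injective σ)
  refine ⟨σ, rfl, Finite.of_subgroup_quotient σ.ker, ⟨?_, ?_, ?_⟩, MulEquiv.ofBijective e₀ he, fun _ => rfl⟩
  · intro g
    obtain ⟨x, rfl⟩ := proj_surjective f hf g
    exact ⟨QuotientGroup.mk x, rfl⟩
  · rw [hker]
    rintro _ ⟨m, hm, rfl⟩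
    refine mem_center_iff.mpr fun q => ?_
    induction q using QuotientGroup.induction_on with
    | H y => exact congrArg QuotientGroup.mk (mem_center_iff.mp (mult_le_center f hm) y)
  · rw [hker]
    refine (map_mono inf_le_right).trans ?_
    rw [_root_.commutator_def, map_commutator]
    exact commutator_mono le_top le_top

omit [Finite G] [Finite ι] in
theorem normal_of_le_ker {C : Subgroup (Src f)} (hC : C ≤ (proj f).ker) : C.Normal :=
  ⟨fun x hx g => by
    rw [mem_center_iff.mp (ker_le_center f (hC hx)) g, mul_inv_cancel_right]; exact hx⟩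

omit [Finite G] [Finite ι] in
/-- A lift to a stem extension is surjective and maps the multiplier onto the kernel. -/
theorem lift_surjective (hf : closure (Set.range f) = ⊤) {Γ : Type w} [Group Γ] {σ : Γ →* G}
    (hσ : Cfsg.IsStemExtension σ) {φ : Src f →* Γ} (hφ : σ.comp φ = proj f) :
    Function.Surjective φ ∧ (mult f).map φ = σ.ker := by
  obtain ⟨hs, hc, hd⟩ := hσ
  have htop : ∀ y : Γ, ∃ x, ∃ z ∈ σ.ker, φ x * z = y := fun y => by
    obtain ⟨x, hx⟩ := proj_surjective f hf (σ y)
    refine ⟨x, (φ x)⁻¹ * y, ?_, mul_inv_cancel_left _ _⟩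
    rw [MonoidHom.mem_ker, map_mul, map_inv, ← MonoidHom.comp_apply, hφ, hx, inv_mul_cancel]
  have hcomm : _root_.commutator Γ ≤ (_root_.commutator (Src f)).map φ := by
    rw [_root_.commutator_def, commutator_le]
    intro a _ b _
    obtain ⟨x, z, hz, rfl⟩ := htop a
    obtain ⟨y, z', hz', rfl⟩ := htop b
    refine ⟨⁅x, y⁆, by rw [_root_.commutator_def]; exact commutator_mem_commutator (mem_top x) (mem_top y), ?_⟩
    have c1 : ∀ w : Γ, w * z = z * w := fun w => mem_center_iff.mp (hc hz) w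
    have c2 : ∀ w : Γ, w * z' = z' * w := fun w => mem_center_iff.mp (hc hz') w
    rw [map_commutatorElement, commutatorElement_def, commutatorElement_def, mul_inv_rev, mul_inv_rev]
    calc φ x * φ y * (φ x)⁻¹ * (φ y)⁻¹
        = φ x * (φ y * z) * z⁻¹ * ((φ x)⁻¹ * z') * z'⁻¹ * (φ y)⁻¹ := by group
      _ = φ x * (z * φ y) * z⁻¹ * (z' * (φ x)⁻¹) * z'⁻¹ * (φ y)⁻¹ := by rw [c1, c2]
      _ = φ x * z * φ y * (z⁻¹ * z') * (φ x)⁻¹ * (z'⁻¹ * (φ y)⁻¹) := by group
      _ = φ x * z * φ y * (z' * z⁻¹) * (φ x)⁻¹ * (z'⁻¹ * (φ y)⁻¹) := by rw [c2 z⁻¹]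
      _ = φ x * z * (φ y * z') * (z⁻¹ * (φ x)⁻¹) * (z'⁻¹ * (φ y)⁻¹) := by group
  refine ⟨fun y => ?_, le_antisymm ?_ fun z hz => ?_⟩
  · obtain ⟨x, z, hz, rfl⟩ := htop y
    obtain ⟨w, -, rfl⟩ := hcomm (hd hz)
    exact ⟨x * w, map_mul φ x w⟩
  · rintro _ ⟨m, hm, rfl⟩
    show σ (φ m) = 1
    rw [← MonoidHom.comp_apply, hφ]; exact mult_le_ker f hm
  · obtain ⟨w, hw, rfl⟩ := hcomm (hd hz)
    refine ⟨w, ⟨?_, hw⟩, rfl⟩
    show proj f w = 1
    rw [← hφ]; exact hz

end Finite

noncomputable instance multCommGroup : CommGroup (mult f) :=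
  { (inferInstance : Group (mult f)) with mul_comm := fun a b => (multComm f).is_comm.comm a b }

section Universal

variable [Finite G]

omit [Finite G] in
/-- Every stem extension kernel is an image of the multiplier. -/
theorem exists_surjection (hf : closure (Set.range f) = ⊤) {Γ : Type w} [Group Γ] (σ : Γ →* G)
    (hσ : Cfsg.IsStemExtension σ) : ∃ π : mult f →* σ.ker, Function.Surjective π := by
  obtain ⟨φ, hφ⟩ := exists_lift f (MonoidHom.id G) σ hσ.1 hσ.2.1
  rw [MonoidHom.id_comp] at hφ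
  obtain ⟨-, hmap⟩ := lift_surjective f hf hσ hφ
  refine ⟨MonoidHom.codRestrict (φ.comp (mult f).subtype) σ.ker fun m => hmap.le ⟨m, m.2, rfl⟩, ?_⟩
  rintro ⟨z, hz⟩
  rw [← hmap] at hz
  obtain ⟨m, hm, rfl⟩ := hz
  exact ⟨⟨m, hm⟩, rfl⟩

/-- A Schur cover above a given stem extension. -/
theorem exists_cover (hf : closure (Set.range f) = ⊤) [Finite ι] {Δ : Type w} [Group Δ] (τ : Δ →* G)
    (hτ : Cfsg.IsStemExtension τ) :
    ∃ (C : Subgroup (Src f)) (_ : C.Normal) (_ : Finite (Src f ⧸ C)) (σ : Src f ⧸ C →* G),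
      Cfsg.IsStemExtension σ ∧ Nonempty (mult f ≃* σ.ker) ∧
      ∃ β : Src f ⧸ C →* Δ, Function.Surjective β ∧ τ.comp β = σ := by
  obtain ⟨φ, hφ⟩ := exists_lift f (MonoidHom.id G) τ hτ.1 hτ.2.1
  rw [MonoidHom.id_comp] at hφ
  obtain ⟨hφs, hmap⟩ := lift_surjective f hf hτ hφ
  letI : CommGroup τ.ker :=
    { (inferInstance : Group τ.ker) with
      mul_comm := fun a b => Subtype.ext ((mem_center_iff.mp (hτ.2.1 a.2) b).symm) }
  let θ : (proj f).ker →* τ.ker := MonoidHom.codRestrict (φ.comp (proj f).ker.subtype) τ.ker fun k => by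
    show τ (φ k) = 1
    rw [← MonoidHom.comp_apply, hφ]; exact k.2
  obtain ⟨C, hC, hd, hsup, hθ⟩ := exists_complement f θ fun k => by
    obtain ⟨m, hm, hmk⟩ : (θ k : Δ) ∈ (mult f).map φ := hmap.ge (θ k).2
    exact ⟨⟨m, mult_le_ker f hm⟩, hm, Subtype.ext hmk⟩
  haveI := normal_of_le_ker f hC
  obtain ⟨σ, hσ, hfin, hstem, e, -⟩ := cover_of_complement f hf hC hd hsup
  refine ⟨C, inferInstance, hfin, σ, hstem, ⟨e⟩, QuotientGroup.lift C φ (fun x hx =>
    congrArg Subtype.val (hθ ⟨x, hC hx⟩ hx)), ?_, ?_⟩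
  · intro d
    obtain ⟨x, rfl⟩ := hφs d
    exact ⟨QuotientGroup.mk x, rfl⟩
  · refine MonoidHom.ext fun q => ?_
    induction q using QuotientGroup.induction_on with
    | H x =>
      show τ (φ x) = σ (QuotientGroup.mk' C x)
      rw [← MonoidHom.comp_apply, hφ, ← MonoidHom.comp_apply, hσ]

theorem nonempty_equiv_of_surjective {A B : Type*} [Group A] [Group B] [Finite A] [Finite B]
    {p : A →* B} {q : B →* A} (hp : Function.Surjective p) (hq : Function.Surjective q) :
    Nonempty (A ≃* B) :=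
  ⟨MulEquiv.ofBijective p (hp.bijective_of_nat_card_le (Nat.card_le_card_of_surjective q hq))⟩

end Universal

section Multiplier

variable (G : Type u) [Group G] [Finite G]

/-- The Schur multiplier of a finite group. -/
abbrev M : Type u := ↥(mult (id : G → G))

theorem closure_range_id : closure (Set.range (id : G → G)) = ⊤ := by simp

theorem hasSchurMultiplier : Cfsg.HasSchurMultiplier G (M G) := by
  refine ⟨?_, fun Γ _ _ σ hσ => exists_surjection id (closure_range_id G) σ hσ⟩
  obtain ⟨C, hC, hd, hsup, -⟩ := exists_complement (id : G → G) (D := PUnit.{1}) 1 fun k =>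
    ⟨1, one_mem _, rfl⟩
  haveI := normal_of_le_ker (id : G → G) hC
  obtain ⟨σ, -, hfin, hstem, e, -⟩ := cover_of_complement (id : G → G) (closure_range_id G) hC hd hsup
  exact ⟨_, inferInstance, hfin, σ, hstem, ⟨e.symm⟩⟩

variable {G}

/-- The multiplier is determined up to isomorphism. -/
theorem nonempty_equiv {A : Type w} [CommGroup A] (hA : Cfsg.HasSchurMultiplier G A) :
    Nonempty (A ≃* M G) := by
  obtain ⟨⟨Γ, _, _, σ, hσ, ⟨e⟩⟩, hall⟩ := hA
  haveI : Finite A := Finite.of_equiv _ e.toEquiv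
  obtain ⟨π, hπ⟩ := exists_surjection id (closure_range_id G) σ hσ
  obtain ⟨⟨Γ', _, _, σ', hσ', ⟨e'⟩⟩, -⟩ := hasSchurMultiplier G
  obtain ⟨π', hπ'⟩ := hall Γ' σ' hσ'
  exact nonempty_equiv_of_surjective (p := e'.toMonoidHom.comp π') (q := e.toMonoidHom.comp π)
    (e'.surjective.comp hπ') (e.surjective.comp hπ)

theorem hasSchurMultiplier_congr {A : Type w} [CommGroup A] (e : M G ≃* A) :
    Cfsg.HasSchurMultiplier G A := by
  obtain ⟨⟨Γ, _, _, σ, hσ, ⟨e'⟩⟩, hall⟩ := hasSchurMultiplier G
  refine ⟨⟨Γ, inferInstance, inferInstance, σ, hσ, ⟨e'.trans e⟩⟩, fun Δ _ _ τ hτ => ?_⟩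
  obtain ⟨π, hπ⟩ := hall Δ τ hτ
  exact ⟨π.comp e.symm.toMonoidHom, hπ.comp e.symm.surjective⟩

theorem hasSchurMultiplier_iff {A : Type w} [CommGroup A] :
    Cfsg.HasSchurMultiplier G A ↔ Nonempty (M G ≃* A) :=
  ⟨fun h => (nonempty_equiv h).map MulEquiv.symm, fun ⟨e⟩ => hasSchurMultiplier_congr e⟩

/-- The multiplier computed from any finite presentation. -/
theorem nonempty_equiv_mult {κ : Type v} [Finite κ] (g : κ → G) (hg : closure (Set.range g) = ⊤) :
    Nonempty (M G ≃* mult g) := by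
  obtain ⟨C, hC, hd, hsup, -⟩ := exists_complement (id : G → G) (D := PUnit.{1}) 1 fun k => ⟨1, one_mem _, rfl⟩
  haveI := normal_of_le_ker (id : G → G) hC
  obtain ⟨σ, -, -, hstem, e, -⟩ := cover_of_complement (id : G → G) (closure_range_id G) hC hd hsup
  obtain ⟨C', hC', hd', hsup', -⟩ := exists_complement g (D := PUnit.{1}) 1 fun k => ⟨1, one_mem _, rfl⟩
  haveI := normal_of_le_ker g hC'
  obtain ⟨σ', -, -, hstem', e', -⟩ := cover_of_complement g hg hC' hd' hsup'
  obtain ⟨π, hπ⟩ := exists_surjection (id : G → G) (closure_range_id G) σ' hstem'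
  obtain ⟨π', hπ'⟩ := exists_surjection g hg σ hstem
  exact nonempty_equiv_of_surjective (p := e'.symm.toMonoidHom.comp π) (q := e.symm.toMonoidHom.comp π')
    (e'.symm.surjective.comp hπ) (e.symm.surjective.comp hπ')

/-- Trivial multiplier. -/
theorem hasCyclic_one_iff : Cfsg.HasCyclicSchurMultiplier G 1 ↔ Subsingleton (M G) := by
  haveI : Subsingleton (Multiplicative (ZMod 1)) := inferInstanceAs (Subsingleton (ZMod 1))
  unfold Cfsg.HasCyclicSchurMultiplier
  rw [hasSchurMultiplier_iff]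
  refine ⟨fun ⟨e⟩ => e.toEquiv.subsingleton, fun h => ?_⟩
  haveI : Unique (M G) := uniqueOfSubsingleton 1
  haveI : Unique (Multiplicative (ZMod 1)) := uniqueOfSubsingleton 1
  exact ⟨MulEquiv.ofUnique⟩

theorem hasCyclic_one_iff_card : Cfsg.HasCyclicSchurMultiplier G 1 ↔ Nat.card (M G) = 1 := by
  rw [hasCyclic_one_iff, Nat.card_eq_one_iff_unique]
  exact ⟨fun h => ⟨h, ⟨1⟩⟩, fun h => h.1⟩

end Multiplier

end CfsgLib.Schur
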