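import Cfsg.Agent.Lib.Chars.Misc
import Cfsg.Agent.Lib.Schur.Core
import Mathlib.GroupTheory.FiniteAbelian.Duality
import Mathlib.RingTheory.RootsOfUnity.AlgebraicallyClosed
import Mathlib.LinearAlgebra.Determinant

/-! Degrees of projective representations and the exponent of the multiplier. -/

set_option autoImplicit false

namespace CfsgLib.Schur.Exponent

open Cfsg CfsgLib.Chars Subgroup

universe u

variable {Γ : Type u} [Group Γ] [Finite Γ]

/-- Central elements of the commutator subgroup act by scalars of order dividing the degree. -/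
theorem pow_degree (χ : IrrCharacter Γ) {z : Γ} (hz : z ∈ center Γ) (hz' : z ∈ _root_.commutator Γ) :
    ((χ : Γ → ℂ) z / (χ : Γ → ℂ) 1) ^ charDegree (χ : Γ → ℂ) = 1 := by
  classical
  haveI := Fintype.ofFinite Γ
  obtain ⟨n, ρ, hρ, hc⟩ := χ.2
  have hdeg : charDegree (χ : Γ → ℂ) = n := by
    have h := irr_apply_one χ
    rw [← hc, Representation.char_one, Module.finrank_fin_fun] at h
    rw [← hc]
    exact_mod_cast h.symm
  have hs : ρ z = ((χ : Γ → ℂ) z / (χ : Γ → ℂ) 1) • LinearMap.id := by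
    let f : Γ → ℂ := fun x => if x = z then 1 else 0
    have hf : IsClassFunction Γ f := by
      intro x h
      have hzc := Subgroup.mem_center_iff.mp hz
      have : h * x * h⁻¹ = z ↔ x = z := by
        constructor
        · intro e
          calc x = h⁻¹ * (h * x * h⁻¹) * h := by group
            _ = h⁻¹ * (z * h) := by rw [e, mul_assoc]
            _ = z := by rw [← hzc h, inv_mul_cancel_left]
        · intro e
          subst e
          rw [hzc h, mul_inv_cancel_right]
      by_cases hx : x = z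
      · simp only [f, if_pos hx, if_pos (this.mpr hx)]
      · simp only [f, if_neg hx, if_neg (mt this.mp hx)]
    have h := repSum_eq_smul ρ hρ hf
    have h1 : repSum ρ f = ρ z := LinearMap.ext fun v => by simp [repSum_apply, f]
    have h2 : (∑ x : Γ, f x * ρ.character x) = ρ.character z := by simp [f]
    rw [h1, h2, hc] at h
    exact h
  let δ : Γ →* ℂˣ := ((LinearMap.det : ((Fin n → ℂ) →ₗ[ℂ] (Fin n → ℂ)) →* ℂ).comp ρ).toHomUnits
  have h1 : LinearMap.det (ρ z) = 1 := congrArg Units.val (Abelianization.commutator_subset_ker δ hz')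
  rw [hs, LinearMap.det_smul, LinearMap.det_id, mul_one, Module.finrank_fin_fun] at h1
  rw [hdeg]; exact h1

open Classical in
/-- The squares of degrees with prescribed central character sum to the index. -/
theorem sum_sq_with_character [Fintype Γ] {Z : Subgroup Γ} (hZ : Z ≤ center Γ) (ζ : Z →* ℂˣ) :
    (∑ χ ∈ Finset.univ.filter
      (fun χ : IrrCharacter Γ => ∀ k : Z, (χ : Γ → ℂ) k = (ζ k : ℂ) * (χ : Γ → ℂ) 1),
        charDegree (χ : Γ → ℂ) ^ 2) = Z.index := by
  haveI := Fintype.ofFinite Z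
  have hsum : ∀ χ : IrrCharacter Γ, ∑ k : Z, ((ζ k)⁻¹ : ℂˣ) * (χ : Γ → ℂ) k =
      if (∀ k : Z, (χ : Γ → ℂ) k = (ζ k : ℂ) * (χ : Γ → ℂ) 1) then (Nat.card Z : ℂ) * (χ : Γ → ℂ) 1 else 0 := by
    intro χ
    split_ifs with h
    · rw [Finset.sum_congr rfl (fun k _ => by rw [h k, ← mul_assoc, ← Units.val_mul, inv_mul_cancel, Units.val_one, one_mul]),
        Finset.sum_const, nsmul_eq_mul, Finset.card_univ, Nat.card_eq_fintype_card]
    · push Not at h
      obtain ⟨k₀, hk₀⟩ := h
      set c : ℂ := ((ζ k₀)⁻¹ : ℂˣ) * ((χ : Γ → ℂ) k₀ / (χ : Γ → ℂ) 1)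
      have hc : c ≠ 1 := by
        intro hc1
        apply hk₀
        calc (χ : Γ → ℂ) k₀ = (ζ k₀ : ℂ) * c * (χ : Γ → ℂ) 1 := by
              simp only [c]; rw [← mul_assoc (ζ k₀ : ℂ), ← Units.val_mul, mul_inv_cancel, Units.val_one, one_mul,
                div_mul_cancel₀ _ (irr_one_ne_zero χ)]
          _ = _ := by rw [hc1, mul_one]
      have hinv : ∑ k : Z, ((ζ k)⁻¹ : ℂˣ) * (χ : Γ → ℂ) k = c * ∑ k : Z, ((ζ k)⁻¹ : ℂˣ) * (χ : Γ → ℂ) k := by
        rw [Finset.mul_sum, ← Equiv.sum_comp (Equiv.mulLeft k₀)]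
        refine Finset.sum_congr rfl fun k _ => ?_
        have h2 := mul_central χ (hZ k₀.2) (k : Γ)
        simp only [Equiv.coe_mulLeft, map_mul, mul_inv_rev, Units.val_mul, Subgroup.coe_mul, c]
        field_simp [irr_one_ne_zero χ]
        linear_combination h2
      by_contra hne
      exact hc (mul_right_cancel₀ hne (by rw [one_mul]; exact hinv.symm))
  have htot : ∑ χ : IrrCharacter Γ, (χ : Γ → ℂ) 1 * (∑ k : Z, ((ζ k)⁻¹ : ℂˣ) * (χ : Γ → ℂ) k) = (Nat.card Γ : ℂ) := by
    simp_rw [Finset.mul_sum]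
    rw [Finset.sum_comm, Finset.sum_eq_single (1 : Z)]
    · simp only [map_one, inv_one, Units.val_one, one_mul, OneMemClass.coe_one]
      rw [sum_deg_mul, if_pos rfl]
    · intro k _ hk
      simp_rw [mul_left_comm ((_ : Γ → ℂ) 1)]
      rw [← Finset.mul_sum, sum_deg_mul, if_neg (show (k : Γ) ≠ 1 from fun h => hk (Subtype.ext h)), mul_zero]
    · simp
  simp_rw [hsum, mul_ite, mul_zero] at htot
  rw [← Finset.sum_filter] at htot
  have h3 : ((Nat.card Z * (∑ χ ∈ Finset.univ.filter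
      (fun χ : IrrCharacter Γ => ∀ k : Z, (χ : Γ → ℂ) k = (ζ k : ℂ) * (χ : Γ → ℂ) 1),
        charDegree (χ : Γ → ℂ) ^ 2) : ℕ) : ℂ) = (Nat.card Γ : ℂ) := by
    rw [← htot]
    push_cast
    rw [Finset.mul_sum]
    refine Finset.sum_congr rfl fun χ _ => ?_
    rw [irr_apply_one]; ring
  have h4 := Nat.eq_of_mul_eq_mul_left (Nat.card_pos (α := Z)) ((Nat.cast_injective h3).trans Z.card_mul_index.symm)
  convert h4 using 3

theorem sq_dvd_index {Z : Subgroup Γ} (hZ : Z ≤ center Γ) (hZ' : Z ≤ _root_.commutator Γ) (ζ : Z →* ℂˣ) :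
    orderOf ζ ^ 2 ∣ Z.index := by
  classical
  haveI := Fintype.ofFinite Γ
  rw [← sum_sq_with_character hZ ζ]
  refine Finset.dvd_sum fun χ hχ => pow_dvd_pow_of_dvd (orderOf_dvd_of_pow_eq_one (MonoidHom.ext fun k => ?_)) 2
  have h := pow_degree χ (hZ k.2) (hZ' k.2)
  rw [(Finset.mem_filter.mp hχ).2 k, mul_div_cancel_right₀ _ (irr_one_ne_zero χ)] at h
  rw [MonoidHom.pow_apply, MonoidHom.one_apply]
  exact Units.ext (by rw [Units.val_pow_eq_pow_val]; exact h)

end CfsgLib.Schur.Exponent
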