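import Cfsg.Agent.Lib.Schur.Core

/-! Central extensions from bilinear forms. -/

set_option autoImplicit false

namespace CfsgLib.Schur

open Subgroup
open scoped commutatorElement

universe u v

/-- A bilinear map on a group with values in an additive abelian group. -/
structure Bilin (G : Type u) [Group G] (D : Type v) [AddCommGroup D] where
  toFun : G → G → D
  left_mul : ∀ a b c, toFun (a * b) c = toFun a c + toFun b c
  right_mul : ∀ a b c, toFun a (b * c) = toFun a b + toFun a c

variable {G : Type u} [Group G] {D : Type v} [AddCommGroup D] (β : Bilin G D)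

namespace Bilin

theorem one_left (a : G) : β.toFun 1 a = 0 := by
  have := β.left_mul 1 1 a
  rwa [one_mul, left_eq_add] at this

theorem one_right (a : G) : β.toFun a 1 = 0 := by
  have := β.right_mul a 1 1
  rwa [one_mul, left_eq_add] at this

theorem inv_left (a b : G) : β.toFun a⁻¹ b = - β.toFun a b := by
  have := β.left_mul a⁻¹ a b
  rw [inv_mul_cancel, one_left] at this
  exact eq_neg_of_add_eq_zero_left this.symm

/-- The carrier of the extension. -/
def Ext (_ : Bilin G D) : Type (max u v) := D × G

instance group : Group (Ext β) where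
  mul x y := (x.1 + y.1 + β.toFun x.2 y.2, x.2 * y.2)
  one := (0, 1)
  inv x := (-x.1 + β.toFun x.2 x.2, x.2⁻¹)
  mul_assoc x y z := by
    refine Prod.ext ?_ (mul_assoc _ _ _)
    show x.1 + y.1 + β.toFun x.2 y.2 + z.1 + β.toFun (x.2 * y.2) z.2 =
      x.1 + (y.1 + z.1 + β.toFun y.2 z.2) + β.toFun x.2 (y.2 * z.2)
    rw [β.left_mul, β.right_mul]; abel
  one_mul x := by
    refine Prod.ext ?_ (one_mul _)
    show 0 + x.1 + β.toFun 1 x.2 = x.1
    rw [one_left]; abel
  mul_one x := by
    refine Prod.ext ?_ (mul_one _)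
    show x.1 + 0 + β.toFun x.2 1 = x.1
    rw [one_right]; abel
  inv_mul_cancel x := by
    refine Prod.ext ?_ (inv_mul_cancel _)
    show -x.1 + β.toFun x.2 x.2 + x.1 + β.toFun x.2⁻¹ x.2 = 0
    rw [inv_left]; abel

/-- The element `(d, g)`. -/
def el (d : D) (g : G) : Ext β := (d, g)

theorem el_mul (d d' : D) (g g' : G) :
    el β d g * el β d' g' = el β (d + d' + β.toFun g g') (g * g') := rfl

/-- The projection. -/
def toG : Ext β →* G where
  toFun x := x.2
  map_one' := rfl
  map_mul' _ _ := rfl

/-- The inclusion of `D`. -/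
def incl : Multiplicative D →* Ext β where
  toFun d := el β (Multiplicative.toAdd d) 1
  map_one' := rfl
  map_mul' a b := by
    rw [el_mul, one_right, add_zero, one_mul]; rfl

theorem toG_surjective : Function.Surjective (toG β) := fun g => ⟨el β 0 g, rfl⟩

instance finite [Finite G] [Finite D] : Finite (Ext β) := inferInstanceAs (Finite (D × G))

theorem ker_toG : (toG β).ker = (incl β).range := by
  refine le_antisymm ?_ ?_
  · rintro ⟨d, g⟩ h
    have hg : g = 1 := h
    subst hg
    exact ⟨Multiplicative.ofAdd d, rfl⟩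
  · rintro _ ⟨d, rfl⟩; rfl

theorem incl_injective : Function.Injective (incl β) := fun a b h =>
  Multiplicative.toAdd.injective (congrArg Prod.fst h)

theorem ker_le_center : (toG β).ker ≤ center (Ext β) := by
  rintro ⟨d, g⟩ h
  have hg : g = 1 := h
  subst hg
  refine mem_center_iff.mpr ?_
  rintro ⟨d', g'⟩
  refine Prod.ext ?_ (by show g' * 1 = 1 * g'; rw [one_mul, mul_one])
  show d' + d + β.toFun g' 1 = d + d' + β.toFun 1 g'
  rw [one_left, one_right]; abel

theorem commutator_el (g h : G) (hgh : g * h = h * g) :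
    ⁅el β 0 g, el β 0 h⁆ = incl β (Multiplicative.ofAdd (β.toFun g h - β.toFun h g)) := by
  rw [commutatorElement_def, mul_assoc, ← mul_inv_rev, mul_inv_eq_iff_eq_mul]
  refine Prod.ext ?_ (by show g * h = 1 * (h * g); rw [one_mul, hgh])
  show 0 + 0 + β.toFun g h = β.toFun g h - β.toFun h g + (0 + 0 + β.toFun h g) + β.toFun 1 (h * g)
  rw [one_left]; abel

/-- The values `β g h - β h g` at commuting pairs. -/
def altValues : Set D := {d | ∃ g h : G, g * h = h * g ∧ β.toFun g h - β.toFun h g = d}

theorem incl_mem_commutator (h : AddSubgroup.closure (altValues β) = ⊤) (d : Multiplicative D) :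
    incl β d ∈ _root_.commutator (Ext β) := by
  obtain ⟨d, rfl⟩ : ∃ e : D, Multiplicative.ofAdd e = d := ⟨Multiplicative.toAdd d, rfl⟩
  have hd : d ∈ AddSubgroup.closure (altValues β) := h ▸ AddSubgroup.mem_top _
  induction hd using AddSubgroup.closure_induction with
  | mem x hx =>
    obtain ⟨g, k, hgk, rfl⟩ := hx
    rw [← commutator_el β g k hgk, _root_.commutator_def]
    exact commutator_mem_commutator (mem_top _) (mem_top _)
  | zero => rw [ofAdd_zero, map_one]; exact one_mem _
  | add x y _ _ hx hy => rw [ofAdd_add, map_mul]; exact mul_mem hx hy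
  | neg x _ hx => rw [ofAdd_neg, map_inv]; exact inv_mem hx

theorem isStemExtension (h : AddSubgroup.closure (altValues β) = ⊤) :
    Cfsg.IsStemExtension (toG β) := by
  refine ⟨toG_surjective β, ker_le_center β, ?_⟩
  rw [ker_toG]
  rintro _ ⟨d, rfl⟩
  exact incl_mem_commutator β h d

noncomputable def kerEquiv : Multiplicative D ≃* (toG β).ker :=
  (MonoidHom.ofInjective (incl_injective β)).trans (MulEquiv.subgroupCongr (ker_toG β).symm)

theorem card_ker : Nat.card (toG β).ker = Nat.card D :=
  Nat.card_congr ((kerEquiv β).symm.toEquiv.trans Multiplicative.toAdd)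

end Bilin

/-- A stem extension gives a lower bound for the multiplier. -/
theorem card_dvd_of_stem {G : Type u} [Group G] [Finite G] {Γ : Type v} [Group Γ] {σ : Γ →* G}
    (hσ : Cfsg.IsStemExtension σ) : Nat.card σ.ker ∣ Nat.card (M G) := by
  obtain ⟨π, hπ⟩ := exists_surjection (id : G → G) (closure_range_id G) σ hσ
  exact Subgroup.card_dvd_of_surjective π hπ

end CfsgLib.Schur
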