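import Cfsg.Agent.Lib.Schur.Basic
import Cfsg.Agent.Lib.Schur.Heisenberg
import Mathlib.LinearAlgebra.TensorProduct.Basic
import Mathlib.RingTheory.TensorProduct.Finite
import Mathlib.GroupTheory.FiniteAbelian.Basic
import Mathlib.GroupTheory.NoncommCoprod

/-! The Schur multiplier of a direct product. -/

set_option autoImplicit false

namespace CfsgLib.Schur

open Subgroup TensorProduct
open scoped commutatorElement

universe u v w

/-- Commutators modulo a central kernel come from any section. -/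
theorem commutator_le_map {E : Type u} [Group E] {X : Type v} [Group X] {Y : Type w} [Group Y]
    (ξ : X →* Y) (hc : ξ.ker ≤ center X) (φ : E →* X) (hs : Function.Surjective (ξ.comp φ)) :
    _root_.commutator X ≤ (_root_.commutator E).map φ := by
  rw [_root_.commutator_def, commutator_le]
  intro a _ b _
  obtain ⟨x, hx⟩ := hs (ξ a)
  obtain ⟨y, hy⟩ := hs (ξ b)
  refine ⟨⁅x, y⁆, by rw [_root_.commutator_def]; exact commutator_mem_commutator (mem_top _) (mem_top _), ?_⟩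
  obtain ⟨z, hz, rfl⟩ : ∃ z ∈ center X, a = φ x * z :=
    ⟨(φ x)⁻¹ * a, hc (by rw [MonoidHom.mem_ker, map_mul, map_inv, ← MonoidHom.comp_apply, hx, inv_mul_cancel]), by group⟩
  obtain ⟨z', hz', rfl⟩ : ∃ z ∈ center X, b = φ y * z :=
    ⟨(φ y)⁻¹ * b, hc (by rw [MonoidHom.mem_ker, map_mul, map_inv, ← MonoidHom.comp_apply, hy, inv_mul_cancel]), by group⟩
  rw [map_commutatorElement, commutatorElement_def, commutatorElement_def]
  have cz := fun u => mem_center_iff.mp hz u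
  have cw := fun u => mem_center_iff.mp hz' u
  symm
  calc φ x * z * (φ y * z') * (φ x * z)⁻¹ * (φ y * z')⁻¹
      = φ x * (z * φ y) * z' * z⁻¹ * (φ x)⁻¹ * z'⁻¹ * (φ y)⁻¹ := by group
    _ = φ x * (φ y * z) * z' * z⁻¹ * (φ x)⁻¹ * z'⁻¹ * (φ y)⁻¹ := by rw [cz (φ y)]
    _ = φ x * φ y * (z * z') * z⁻¹ * (φ x)⁻¹ * z'⁻¹ * (φ y)⁻¹ := by group
    _ = φ x * φ y * (z' * z) * z⁻¹ * (φ x)⁻¹ * z'⁻¹ * (φ y)⁻¹ := by rw [cw z]
    _ = φ x * φ y * (z' * (φ x)⁻¹) * z'⁻¹ * (φ y)⁻¹ := by group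
    _ = φ x * φ y * ((φ x)⁻¹ * z') * z'⁻¹ * (φ y)⁻¹ := by rw [cw (φ x)⁻¹]
    _ = φ x * φ y * (φ x)⁻¹ * (φ y)⁻¹ := by group

variable {Q₁ : Type u} {Q₂ : Type v} [Group Q₁] [Group Q₂]

/-- The tensor product of the two commutator quotients. -/
abbrev Tens (Q₁ : Type u) (Q₂ : Type v) [Group Q₁] [Group Q₂] :=
  Additive (Abelianization Q₁) ⊗[ℤ] Additive (Abelianization Q₂)

variable [Finite Q₁] [Finite Q₂]

instance finite_tens : Finite (Tens Q₁ Q₂) := by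
  haveI : Finite (Abelianization Q₁) := inferInstanceAs (Finite (Q₁ ⧸ _root_.commutator Q₁))
  haveI : Finite (Abelianization Q₂) := inferInstanceAs (Finite (Q₂ ⧸ _root_.commutator Q₂))
  haveI : Module.Finite ℤ (Additive (Abelianization Q₁)) := Module.Finite.of_finite
  haveI : Module.Finite ℤ (Additive (Abelianization Q₂)) := Module.Finite.of_finite
  have h : Module.Finite ℤ (Tens Q₁ Q₂) := Module.Finite.tensorProduct ℤ _ _
  haveI : AddGroup.FG (Tens Q₁ Q₂) := Module.Finite.iff_addGroup_fg.mp h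
  refine AddCommGroup.finite_of_fg_isAddTorsion _ fun x => isOfFinAddOrder_iff_nsmul_eq_zero.mpr ⟨Nat.card (Abelianization Q₁), Nat.card_pos, ?_⟩
  induction x using TensorProduct.induction_on with
  | zero => exact nsmul_zero _
  | tmul a b => rw [TensorProduct.smul_tmul', show Nat.card (Abelianization Q₁) • a = 0 from by
      exact congrArg Additive.ofMul (pow_card_eq_one' (x := Additive.toMul a)), TensorProduct.zero_tmul]
  | add a b ha hb => rw [nsmul_add, ha, hb, add_zero]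

theorem exists_stem_product {Γ₁ : Type u} [Group Γ₁] [Finite Γ₁] {σ₁ : Γ₁ →* Q₁} (h₁ : Cfsg.IsStemExtension σ₁)
    {Γ₂ : Type v} [Group Γ₂] [Finite Γ₂] {σ₂ : Γ₂ →* Q₂} (h₂ : Cfsg.IsStemExtension σ₂) :
    ∃ (Γ : Type (max u v)) (_ : Group Γ) (_ : Finite Γ) (σ : Γ →* Q₁ × Q₂), Cfsg.IsStemExtension σ ∧
      Nonempty (σ.ker ≃* σ₁.ker × σ₂.ker × Multiplicative (Tens Q₁ Q₂)) := by
  let t₁ : Γ₁ → Additive (Abelianization Q₁) := fun g => Additive.ofMul (Abelianization.of (σ₁ g))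
  let t₂ : Γ₂ → Additive (Abelianization Q₂) := fun g => Additive.ofMul (Abelianization.of (σ₂ g))
  have ht₁ : ∀ a b, t₁ (a * b) = t₁ a + t₁ b := fun a b => by simp [t₁]
  have ht₂ : ∀ a b, t₂ (a * b) = t₂ a + t₂ b := fun a b => by simp [t₂]
  have hk₁ : ∀ k ∈ σ₁.ker, t₁ k = 0 := fun k hk => by simp [t₁, MonoidHom.mem_ker.mp hk]
  have hk₂ : ∀ k ∈ σ₂.ker, t₂ k = 0 := fun k hk => by simp [t₂, MonoidHom.mem_ker.mp hk]
  let β : Bilin (Γ₁ × Γ₂) (Tens Q₁ Q₂) :=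
    { toFun := fun a b => t₁ a.1 ⊗ₜ[ℤ] t₂ b.2
      left_mul := fun a b c => by rw [Prod.fst_mul, ht₁, TensorProduct.add_tmul]
      right_mul := fun a b c => by rw [Prod.snd_mul, ht₂, TensorProduct.tmul_add] }
  let σ : Bilin.Ext β →* Q₁ × Q₂ := (σ₁.prodMap σ₂).comp (Bilin.toG β)
  have halt : AddSubgroup.closure β.altValues = ⊤ := by
    refine eq_top_iff.mpr fun x _ => ?_
    induction x using TensorProduct.induction_on with
    | zero => exact zero_mem _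
    | tmul a b =>
      obtain ⟨a', rfl⟩ : ∃ g, t₁ g = a := by
        obtain ⟨q, hq⟩ := QuotientGroup.mk_surjective (Additive.toMul a)
        obtain ⟨g, rfl⟩ := h₁.1 q
        exact ⟨g, congrArg Additive.ofMul hq⟩
      obtain ⟨b', rfl⟩ : ∃ g, t₂ g = b := by
        obtain ⟨q, hq⟩ := QuotientGroup.mk_surjective (Additive.toMul b)
        obtain ⟨g, rfl⟩ := h₂.1 q
        exact ⟨g, congrArg Additive.ofMul hq⟩
      refine AddSubgroup.subset_closure ⟨(a', 1), (1, b'), by simp, ?_⟩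
      show t₁ a' ⊗ₜ[ℤ] t₂ b' - t₁ 1 ⊗ₜ[ℤ] t₂ 1 = _
      rw [hk₁ 1 (one_mem _), TensorProduct.zero_tmul, sub_zero]
    | add a b ha hb => exact add_mem (ha trivial) (hb trivial)
  have hker : ∀ x : Bilin.Ext β, x ∈ σ.ker ↔ x.2.1 ∈ σ₁.ker ∧ x.2.2 ∈ σ₂.ker := fun x => by
    show (σ₁ x.2.1, σ₂ x.2.2) = 1 ↔ _
    rw [Prod.mk_eq_one]; rfl
  refine ⟨Bilin.Ext β, inferInstance, inferInstance, σ, ⟨?_, ?_, ?_⟩, ⟨?_⟩⟩
  · rintro ⟨a, b⟩
    obtain ⟨g, rfl⟩ := h₁.1 a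
    obtain ⟨h, rfl⟩ := h₂.1 b
    exact ⟨Bilin.el β 0 (g, h), rfl⟩
  · intro x hx
    obtain ⟨ha, hb⟩ := (hker x).mp hx
    refine mem_center_iff.mpr fun y => Prod.ext ?_ (Prod.ext (mem_center_iff.mp (h₁.2.1 ha) y.2.1) (mem_center_iff.mp (h₂.2.1 hb) y.2.2))
    show y.1 + x.1 + t₁ y.2.1 ⊗ₜ[ℤ] t₂ x.2.2 = x.1 + y.1 + t₁ x.2.1 ⊗ₜ[ℤ] t₂ y.2.2
    rw [hk₁ _ ha, hk₂ _ hb, TensorProduct.zero_tmul, TensorProduct.tmul_zero]; abel
  · intro x hx
    obtain ⟨ha, hb⟩ := (hker x).mp hx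
    have h1 : x.2 ∈ (_root_.commutator (Bilin.Ext β)).map (Bilin.toG β) := by
      rw [_root_.commutator_def, map_commutator, map_top_of_surjective _ (Bilin.toG_surjective β), ← _root_.commutator_def]
      have e1 := mem_map_of_mem (MonoidHom.inl Γ₁ Γ₂) (h₁.2.2 ha)
      have e2 := mem_map_of_mem (MonoidHom.inr Γ₁ Γ₂) (h₂.2.2 hb)
      rw [_root_.commutator_def, map_commutator] at e1 e2
      have := mul_mem (commutator_mono le_top le_top e1) (commutator_mono le_top le_top e2)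
      rw [_root_.commutator_def]
      simpa using this
    obtain ⟨y, hy, hyx⟩ := h1
    have h2 : y⁻¹ * x ∈ (Bilin.toG β).ker := by rw [MonoidHom.mem_ker, map_mul, map_inv, hyx]; exact inv_mul_cancel _
    rw [Bilin.ker_toG] at h2
    obtain ⟨d, hd⟩ := h2
    rw [show x = y * (y⁻¹ * x) by group, ← hd]
    exact mul_mem hy (Bilin.incl_mem_commutator β halt d)
  · exact
    { toFun := fun x => (⟨x.1.2.1, ((hker x.1).mp x.2).1⟩, ⟨x.1.2.2, ((hker x.1).mp x.2).2⟩, Multiplicative.ofAdd x.1.1)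
      invFun := fun y => ⟨Bilin.el β (Multiplicative.toAdd y.2.2) ((y.1 : Γ₁), (y.2.1 : Γ₂)), (hker _).mpr ⟨y.1.2, y.2.1.2⟩⟩
      left_inv := fun x => rfl
      right_inv := fun y => rfl
      map_mul' := fun x y => by
        refine Prod.ext (Subtype.ext rfl) (Prod.ext (Subtype.ext rfl) ?_)
        show Multiplicative.ofAdd (x.1.1 + y.1.1 + t₁ x.1.2.1 ⊗ₜ[ℤ] t₂ y.1.2.2) = Multiplicative.ofAdd (x.1.1 + y.1.1)
        rw [hk₁ _ ((hker x.1).mp x.2).1, TensorProduct.zero_tmul, add_zero] }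

theorem exists_surjection_product {Γ : Type w} [Group Γ] {σ : Γ →* Q₁ × Q₂} (hσ : Cfsg.IsStemExtension σ) :
    ∃ π : M Q₁ × M Q₂ × Multiplicative (Tens Q₁ Q₂) →* σ.ker, Function.Surjective π := by
  classical
  obtain ⟨hs, hc, hd⟩ := hσ
  obtain ⟨φ₁, hφ₁⟩ := exists_lift (id : Q₁ → Q₁) (MonoidHom.inl Q₁ Q₂) σ hs hc
  obtain ⟨φ₂, hφ₂⟩ := exists_lift (id : Q₂ → Q₂) (MonoidHom.inr Q₁ Q₂) σ hs hc
  letI : CommGroup σ.ker :=
    { (inferInstance : Group σ.ker) with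
      mul_comm := fun a b => Subtype.ext ((mem_center_iff.mp (hc a.2) b).symm) }
  let a : M Q₁ →* σ.ker := MonoidHom.codRestrict (φ₁.comp (mult (id : Q₁ → Q₁)).subtype) _ fun m => by
    rw [MonoidHom.mem_ker]; show (σ.comp φ₁) m = 1
    rw [hφ₁, MonoidHom.comp_apply, MonoidHom.mem_ker.mp (mult_le_ker _ m.2), map_one]
  let b : M Q₂ →* σ.ker := MonoidHom.codRestrict (φ₂.comp (mult (id : Q₂ → Q₂)).subtype) _ fun m => by
    rw [MonoidHom.mem_ker]; show (σ.comp φ₂) m = 1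
    rw [hφ₂, MonoidHom.comp_apply, MonoidHom.mem_ker.mp (mult_le_ker _ m.2), map_one]
  have hk : ∀ x y, ⁅φ₁ x, φ₂ y⁆ ∈ σ.ker := fun x y => by
    rw [MonoidHom.mem_ker, map_commutatorElement, ← MonoidHom.comp_apply σ, ← MonoidHom.comp_apply σ, hφ₁, hφ₂,
      commutatorElement_eq_one_iff_mul_comm]
    simp
  -- the pairing
  let P : Src (id : Q₁ → Q₁) → Src (id : Q₂ → Q₂) → σ.ker := fun x y => ⟨⁅φ₁ x, φ₂ y⁆, hk x y⟩
  have hPl : ∀ x x' y, P (x * x') y = P x y * P x' y := fun x x' y => Subtype.ext (by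
    show ⁅φ₁ (x * x'), φ₂ y⁆ = ⁅φ₁ x, φ₂ y⁆ * ⁅φ₁ x', φ₂ y⁆
    have hz := mem_center_iff.mp (hc (hk x' y))
    calc ⁅φ₁ (x * x'), φ₂ y⁆ = (φ₁ x * ⁅φ₁ x', φ₂ y⁆) * φ₂ y * (φ₁ x)⁻¹ * (φ₂ y)⁻¹ := by
          simp only [commutatorElement_def, map_mul]; group
      _ = (⁅φ₁ x', φ₂ y⁆ * φ₁ x) * φ₂ y * (φ₁ x)⁻¹ * (φ₂ y)⁻¹ := by rw [hz]
      _ = ⁅φ₁ x', φ₂ y⁆ * ⁅φ₁ x, φ₂ y⁆ := by simp only [commutatorElement_def]; group
      _ = _ := (hz _).symm)
  have hPr : ∀ x y y', P x (y * y') = P x y * P x y' := fun x y y' => Subtype.ext (by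
    show ⁅φ₁ x, φ₂ (y * y')⁆ = ⁅φ₁ x, φ₂ y⁆ * ⁅φ₁ x, φ₂ y'⁆
    have hz := mem_center_iff.mp (hc (hk x y'))
    calc ⁅φ₁ x, φ₂ (y * y')⁆ = ⁅φ₁ x, φ₂ y⁆ * (φ₂ y * ⁅φ₁ x, φ₂ y'⁆) * (φ₂ y)⁻¹ := by
          simp only [commutatorElement_def, map_mul]; group
      _ = ⁅φ₁ x, φ₂ y⁆ * (⁅φ₁ x, φ₂ y'⁆ * φ₂ y) * (φ₂ y)⁻¹ := by rw [hz]
      _ = ⁅φ₁ x, φ₂ y⁆ * ⁅φ₁ x, φ₂ y'⁆ := by group)
  have hPker₂ : ∀ x, ∀ y ∈ (proj (id : Q₂ → Q₂)).ker, P x y = 1 := fun x y hy => Subtype.ext (by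
    have h1 : φ₂ y ∈ center Γ := hc (by
      rw [MonoidHom.mem_ker, ← MonoidHom.comp_apply, hφ₂, MonoidHom.comp_apply, MonoidHom.mem_ker.mp hy, map_one])
    show ⁅φ₁ x, φ₂ y⁆ = 1
    rw [commutatorElement_eq_one_iff_mul_comm, mem_center_iff.mp h1])
  have hPker₁ : ∀ y, ∀ x ∈ (proj (id : Q₁ → Q₁)).ker, P x y = 1 := fun y x hx => Subtype.ext (by
    have h1 : φ₁ x ∈ center Γ := hc (by
      rw [MonoidHom.mem_ker, ← MonoidHom.comp_apply, hφ₁, MonoidHom.comp_apply, MonoidHom.mem_ker.mp hx, map_one])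
    show ⁅φ₁ x, φ₂ y⁆ = 1
    rw [commutatorElement_eq_one_iff_mul_comm, mem_center_iff.mp h1])
  let R : Src (id : Q₁ → Q₁) →* (Abelianization Q₂ →* σ.ker) := MonoidHom.mk'
    (fun x => Abelianization.lift ((proj (id : Q₂ → Q₂)).liftOfSurjective (proj_surjective id (closure_range_id Q₂))
      ⟨MonoidHom.mk' (P x) (hPr x), fun y hy => hPker₂ x y hy⟩))
    (fun x x' => by
      refine Abelianization.hom_ext _ _ (MonoidHom.ext fun q => ?_)
      obtain ⟨y, rfl⟩ := proj_surjective (id : Q₂ → Q₂) (closure_range_id Q₂) q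
      simp [MonoidHom.liftOfRightInverse_comp_apply, hPl])
  let S : Abelianization Q₁ →* (Abelianization Q₂ →* σ.ker) :=
    Abelianization.lift ((proj (id : Q₁ → Q₁)).liftOfSurjective (proj_surjective id (closure_range_id Q₁))
      ⟨R, fun x hx => Abelianization.hom_ext _ _ (MonoidHom.ext fun q => by
        obtain ⟨y, rfl⟩ := proj_surjective (id : Q₂ → Q₂) (closure_range_id Q₂) q
        simp [R, MonoidHom.liftOfRightInverse_comp_apply, hPker₁ y x hx])⟩)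
  have hS : ∀ x y, S (Abelianization.of (proj id x)) (Abelianization.of (proj id y)) = P x y := fun x y => by
    simp [S, R, MonoidHom.liftOfRightInverse_comp_apply]
  let f : Additive (Abelianization Q₁) →+ Additive (Abelianization Q₂) →+ Additive σ.ker :=
    AddMonoidHom.mk' (fun u => MonoidHom.toAdditive (S (Additive.toMul u)))
      (fun u u' => by ext v; simp)
  let c₀ : Tens Q₁ Q₂ →+ Additive σ.ker :=
    TensorProduct.liftAddHom f fun r u v => by rw [map_zsmul, map_zsmul, AddMonoidHom.zsmul_apply]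
  let c : Multiplicative (Tens Q₁ Q₂) →* σ.ker := AddMonoidHom.toMultiplicativeLeft c₀
  let π : M Q₁ × M Q₂ × Multiplicative (Tens Q₁ Q₂) →* σ.ker :=
    MonoidHom.coprod a (MonoidHom.coprod b c)
  refine ⟨π, ?_⟩
  let I : Subgroup Γ := π.range.map σ.ker.subtype
  have hIle : I ≤ σ.ker := map_subtype_le _
  haveI : I.Normal := ⟨fun x hx g => by rw [mem_center_iff.mp (hc (hIle hx)) g, mul_inv_cancel_right]; exact hx⟩
  have hP : ∀ x y, ⁅φ₁ x, φ₂ y⁆ ∈ I := fun x y => by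
    refine ⟨P x y, ⟨(1, 1, Multiplicative.ofAdd (Additive.ofMul (Abelianization.of (proj id x)) ⊗ₜ[ℤ]
      Additive.ofMul (Abelianization.of (proj id y)))), ?_⟩, rfl⟩
    simp [π, c, c₀, f, hS]
  let ξ : Γ ⧸ I →* Q₁ × Q₂ := QuotientGroup.lift I σ hIle
  have hξc : ξ.ker ≤ center (Γ ⧸ I) := by
    intro q hq
    induction q using QuotientGroup.induction_on with
    | H g =>
      refine mem_center_iff.mpr fun q' => ?_
      induction q' using QuotientGroup.induction_on with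
      | H g' => exact congrArg QuotientGroup.mk (mem_center_iff.mp (hc hq) g')
  let F : Src (id : Q₁ → Q₁) × Src (id : Q₂ → Q₂) →* Γ ⧸ I :=
    MonoidHom.noncommCoprod ((QuotientGroup.mk' I).comp φ₁) ((QuotientGroup.mk' I).comp φ₂) fun x y => by
      refine commutatorElement_eq_one_iff_mul_comm.mp ?_
      rw [MonoidHom.comp_apply, MonoidHom.comp_apply, ← map_commutatorElement]
      exact (QuotientGroup.eq_one_iff _).mpr (hP x y)
  have hξF : Function.Surjective (ξ.comp F) := by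
    rintro ⟨u, v⟩
    obtain ⟨x, rfl⟩ := proj_surjective (id : Q₁ → Q₁) (closure_range_id Q₁) u
    obtain ⟨y, rfl⟩ := proj_surjective (id : Q₂ → Q₂) (closure_range_id Q₂) v
    refine ⟨(x, y), ?_⟩
    show ξ ((QuotientGroup.mk' I) (φ₁ x) * (QuotientGroup.mk' I) (φ₂ y)) = _
    rw [← map_mul]
    show σ (φ₁ x * φ₂ y) = _
    rw [map_mul, ← MonoidHom.comp_apply σ, hφ₁, ← MonoidHom.comp_apply σ, hφ₂]
    simp
  rintro ⟨z, hz⟩
  have h1 := mem_map_of_mem (QuotientGroup.mk' I) (hd hz)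
  rw [_root_.commutator_def, map_commutator, map_top_of_surjective _ (QuotientGroup.mk'_surjective I), ← _root_.commutator_def] at h1
  obtain ⟨⟨x, y⟩, hxy, hF⟩ := commutator_le_map ξ hξc F hξF h1
  have hF' : (QuotientGroup.mk' I) (φ₁ x * φ₂ y) = QuotientGroup.mk' I z := by rw [map_mul]; exact hF
  have hzI : (φ₁ x * φ₂ y)⁻¹ * z ∈ I := (QuotientGroup.eq_one_iff _).mp (by
    rw [← QuotientGroup.mk'_apply, map_mul, map_inv, hF', inv_mul_cancel])
  have hσxy : σ (φ₁ x * φ₂ y) = 1 := by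
    have := MonoidHom.mem_ker.mp (hIle hzI)
    rw [map_mul, map_inv, MonoidHom.mem_ker.mp hz, mul_one, inv_eq_one] at this
    exact this
  rw [map_mul, ← MonoidHom.comp_apply σ, hφ₁, ← MonoidHom.comp_apply σ, hφ₂] at hσxy
  simp only [MonoidHom.comp_apply, MonoidHom.inl_apply, MonoidHom.inr_apply, Prod.mk_mul_mk, mul_one, one_mul,
    Prod.mk_eq_one] at hσxy
  have hx : x ∈ _root_.commutator _ := by
    have := mem_map_of_mem (MonoidHom.fst (Src (id : Q₁ → Q₁)) (Src (id : Q₂ → Q₂))) hxy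
    rw [_root_.commutator_def, map_commutator] at this
    rw [_root_.commutator_def]; exact commutator_mono le_top le_top this
  have hy : y ∈ _root_.commutator _ := by
    have := mem_map_of_mem (MonoidHom.snd (Src (id : Q₁ → Q₁)) (Src (id : Q₂ → Q₂))) hxy
    rw [_root_.commutator_def, map_commutator] at this
    rw [_root_.commutator_def]; exact commutator_mono le_top le_top this
  obtain ⟨w, ⟨t, rfl⟩, htw⟩ := hzI
  refine ⟨(⟨x, hσxy.1, hx⟩, ⟨y, hσxy.2, hy⟩, 1) * t, Subtype.ext ?_⟩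
  rw [map_mul]
  show ((π (⟨x, hσxy.1, hx⟩, ⟨y, hσxy.2, hy⟩, 1) : σ.ker) : Γ) * (π t : σ.ker) = z
  rw [show ((π t : σ.ker) : Γ) = (φ₁ x * φ₂ y)⁻¹ * z from htw]
  simp [π, a, b]
  group

theorem hasSchurMultiplier_prod {A B : Type w} [CommGroup A] [CommGroup B]
    (hA : Cfsg.HasSchurMultiplier Q₁ A) (hB : Cfsg.HasSchurMultiplier Q₂ B) :
    Cfsg.HasSchurMultiplier (Q₁ × Q₂) (A × B × Multiplicative (Tens Q₁ Q₂)) := by
  obtain ⟨g₁⟩ := nonempty_equiv hA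
  obtain ⟨g₂⟩ := nonempty_equiv hB
  obtain ⟨⟨Γ₁, _, _, σ₁, h₁, ⟨e₁⟩⟩, -⟩ := hA
  obtain ⟨⟨Γ₂, _, _, σ₂, h₂, ⟨e₂⟩⟩, -⟩ := hB
  refine ⟨?_, fun Γ _ _ σ hσ => ?_⟩
  · obtain ⟨Γ, i, j, σ, hσ, ⟨e⟩⟩ := exists_stem_product h₁ h₂
    exact ⟨Γ, i, j, σ, hσ, ⟨e.trans (e₁.prodCongr (e₂.prodCongr (MulEquiv.refl _)))⟩⟩
  · obtain ⟨π, hπ⟩ := exists_surjection_product hσ
    let e : A × B × Multiplicative (Tens Q₁ Q₂) ≃* M Q₁ × M Q₂ × Multiplicative (Tens Q₁ Q₂) :=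
      g₁.prodCongr (g₂.prodCongr (MulEquiv.refl _))
    exact ⟨π.comp e.toMonoidHom, hπ.comp e.surjective⟩

end CfsgLib.Schur
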