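import Cfsg.Agent.Lib.Schur.Basic
import Mathlib.Algebra.Category.Grp.Injective
import Mathlib.Analysis.Complex.Polynomial.Basic
import Mathlib.GroupTheory.FiniteAbelian.Duality
import Mathlib.RingTheory.RootsOfUnity.AlgebraicallyClosed
import Mathlib.LinearAlgebra.Matrix.GeneralLinearGroup.Basic
import Mathlib.LinearAlgebra.Matrix.ToLin

/-! Projective representations and Schur covers. -/

set_option autoImplicit false

namespace CfsgLib.Schur

open Subgroup
open scoped commutatorElement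

universe u v w

/-- Two homomorphisms equal modulo a central kernel agree on commutators. -/
theorem eqOn_commutator {P X Y : Type*} [Group P] [Group X] [Group Y]
    (ξ : X →* Y) (hc : ξ.ker ≤ center X) {η₁ η₂ : P →* X}
    (h : ξ.comp η₁ = ξ.comp η₂) : ∀ p ∈ _root_.commutator P, η₁ p = η₂ p := by
  have hz : ∀ p : P, η₁ p * (η₂ p)⁻¹ ∈ center X := fun p => hc (by
    rw [MonoidHom.mem_ker, map_mul, map_inv, ← MonoidHom.comp_apply, h, MonoidHom.comp_apply, mul_inv_cancel])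
  have hle : (_root_.commutator P) ≤ η₁.eqLocus η₂ := by
    rw [_root_.commutator_def, commutator_le]
    intro a _ b _
    show η₁ ⁅a, b⁆ = η₂ ⁅a, b⁆
    rw [map_commutatorElement, map_commutatorElement]
    obtain ⟨u, hu, eu⟩ : ∃ u ∈ center X, η₁ a = u * η₂ a := ⟨_, hz a, by group⟩
    obtain ⟨v, hv, ev⟩ : ∃ v ∈ center X, η₁ b = v * η₂ b := ⟨_, hz b, by group⟩
    have cu : ∀ w : X, w * u = u * w := fun w => mem_center_iff.mp hu w
    have cv : ∀ w : X, w * v = v * w := fun w => mem_center_iff.mp hv w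
    rw [eu, ev, commutatorElement_def, commutatorElement_def, mul_inv_rev, mul_inv_rev]
    calc u * η₂ a * (v * η₂ b) * ((η₂ a)⁻¹ * u⁻¹) * ((η₂ b)⁻¹ * v⁻¹)
        = u * (η₂ a * v) * η₂ b * (η₂ a)⁻¹ * u⁻¹ * (η₂ b)⁻¹ * v⁻¹ := by group
      _ = u * (v * η₂ a) * η₂ b * (η₂ a)⁻¹ * u⁻¹ * (η₂ b)⁻¹ * v⁻¹ := by rw [cv]
      _ = (u * (v * (η₂ a * η₂ b * (η₂ a)⁻¹))) * u⁻¹ * (η₂ b)⁻¹ * v⁻¹ := by group
      _ = ((v * (η₂ a * η₂ b * (η₂ a)⁻¹)) * u) * u⁻¹ * (η₂ b)⁻¹ * v⁻¹ := by rw [cu]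
      _ = (v * (η₂ a * η₂ b * (η₂ a)⁻¹ * (η₂ b)⁻¹)) * v⁻¹ := by group
      _ = ((η₂ a * η₂ b * (η₂ a)⁻¹ * (η₂ b)⁻¹) * v) * v⁻¹ := by rw [cv (η₂ a * η₂ b * (η₂ a)⁻¹ * (η₂ b)⁻¹)]
      _ = η₂ a * η₂ b * (η₂ a)⁻¹ * (η₂ b)⁻¹ := by group
  exact fun p hp => hle hp

/-- A surjection between kernels from a kernel inclusion on the multiplier. -/
theorem exists_ker_surjection {G : Type u} [Group G] {Γ : Type v} [Group Γ] {Δ : Type w} [Group Δ]
    {σ : Γ →* G} (hσ : Cfsg.IsStemExtension σ) {τ : Δ →* G} (hτ : Cfsg.IsStemExtension τ)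
    {φ : Src (id : G → G) →* Γ} (hφ : σ.comp φ = proj id) {ψ : Src (id : G → G) →* Δ}
    (hψ : τ.comp ψ = proj id) (h : ∀ m ∈ mult (id : G → G), φ m = 1 → ψ m = 1) :
    ∃ π : σ.ker →* τ.ker, Function.Surjective π := by
  obtain ⟨-, hσm⟩ := lift_surjective id (by simp) hσ hφ
  obtain ⟨-, hτm⟩ := lift_surjective id (by simp) hτ hψ
  let φM : mult (id : G → G) →* σ.ker :=
    MonoidHom.codRestrict (φ.comp (mult (id : G → G)).subtype) σ.ker fun m => hσm.le ⟨m, m.2, rfl⟩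
  let ψM : mult (id : G → G) →* τ.ker :=
    MonoidHom.codRestrict (ψ.comp (mult (id : G → G)).subtype) τ.ker fun m => hτm.le ⟨m, m.2, rfl⟩
  have hφs : Function.Surjective φM := by
    rintro ⟨z, hz⟩
    obtain ⟨m, hm, rfl⟩ := hσm.ge hz
    exact ⟨⟨m, hm⟩, rfl⟩
  have hψs : Function.Surjective ψM := by
    rintro ⟨z, hz⟩
    obtain ⟨m, hm, rfl⟩ := hτm.ge hz
    exact ⟨⟨m, hm⟩, rfl⟩
  refine ⟨φM.liftOfSurjective hφs ⟨ψM, fun m hm => Subtype.ext (h m m.2 (congrArg Subtype.val hm))⟩, fun d => ?_⟩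
  obtain ⟨m, rfl⟩ := hψs d
  exact ⟨φM m, MonoidHom.liftOfRightInverse_comp_apply _ _ _ _ m⟩

/-- Central extensions of a group with trivial multiplier. -/
theorem ker_inf_commutator_eq_bot {G : Type u} [Group G] [Finite G] [Subsingleton (M G)] {X : Type v} [Group X]
    (ξ : X →* G) (hs : Function.Surjective ξ) (hc : ξ.ker ≤ center X) : ξ.ker ⊓ _root_.commutator X = ⊥ := by
  obtain ⟨φ, hφ⟩ := exists_lift (id : G → G) (MonoidHom.id G) ξ hs hc
  rw [MonoidHom.id_comp] at hφ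
  choose s hs' using proj_surjective (id : G → G) (closure_range_id G)
  have hle : _root_.commutator X ≤ (_root_.commutator (Src (id : G → G))).map φ := by
    rw [_root_.commutator_def, commutator_le]
    intro a _ b _
    refine ⟨⁅s (ξ a), s (ξ b)⁆, by rw [_root_.commutator_def]; exact commutator_mem_commutator (mem_top _) (mem_top _), ?_⟩
    rw [map_commutatorElement]
    let F : FreeGroup Bool →* X := FreeGroup.lift fun i => if i then φ (s (ξ a)) else φ (s (ξ b))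
    let F' : FreeGroup Bool →* X := FreeGroup.lift fun i => if i then a else b
    have hF : ξ.comp F = ξ.comp F' := FreeGroup.ext_hom _ _ fun i => by
      cases i <;> simp [F, F', ← MonoidHom.comp_apply, hφ, hs']
    have := eqOn_commutator ξ hc hF ⁅FreeGroup.of true, FreeGroup.of false⁆
      (by rw [_root_.commutator_def]; exact commutator_mem_commutator (mem_top _) (mem_top _))
    simpa [F, F', map_commutatorElement] using this
  rw [eq_bot_iff]
  rintro x ⟨hx, hxc⟩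
  obtain ⟨w, hw, rfl⟩ := hle hxc
  have hwm : w ∈ mult (id : G → G) := ⟨by show proj id w = 1; rw [← hφ]; exact hx, hw⟩
  rw [show w = 1 from congrArg Subtype.val (Subsingleton.elim (⟨w, hwm⟩ : M G) 1), map_one]
  exact one_mem _

/-- A finite group acts with a prescribed central character in some matrix representation. -/
theorem exists_rep_character {Δ : Type u} [Group Δ] [Finite Δ] {Z : Subgroup Δ} (hZ : Z ≤ center Δ)
    (χ : Z →* ℂˣ) :
    ∃ (n : ℕ) (ρ : Δ →* GL (Fin n) ℂ), 0 < n ∧ ∀ k : Z, ρ k = Matrix.GeneralLinearGroup.scalar (Fin n) (χ k) := by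
  classical
  let V : Submodule ℂ (Δ → ℂ) :=
    { carrier := {f | ∀ (k : Z) (x : Δ), f (k * x) = (χ k : ℂ) * f x}
      zero_mem' := fun k x => by simp
      add_mem' := fun {f g} hf hg k x => by simp [hf k x, hg k x, mul_add]
      smul_mem' := fun c f hf k x => by simp [hf k x, mul_left_comm] }
  let R : Δ →* Module.End ℂ V :=
    { toFun := fun g =>
        { toFun := fun f => ⟨fun x => (f : Δ → ℂ) (x * g), fun k x => by
            show (f : Δ → ℂ) (k * x * g) = _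
            rw [mul_assoc]; exact f.2 k _⟩
          map_add' := fun f₁ f₂ => Subtype.ext (funext fun x => rfl)
          map_smul' := fun c f => Subtype.ext (funext fun x => rfl) }
      map_one' := LinearMap.ext fun f => Subtype.ext (funext fun x => by
        show (f : Δ → ℂ) (x * 1) = _
        rw [mul_one]; rfl)
      map_mul' := fun g h => LinearMap.ext fun f => Subtype.ext (funext fun x => by
        show (f : Δ → ℂ) (x * (g * h)) = (f : Δ → ℂ) (x * g * h)
        rw [mul_assoc]) }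
  let b := Module.finBasis ℂ V
  let e := LinearMap.toMatrixAlgEquiv b
  let ρ : Δ →* GL (Fin (Module.finrank ℂ V)) ℂ :=
    ((e : Module.End ℂ V ≃ₐ[ℂ] _).toMulEquiv.toMonoidHom.comp R).toHomUnits
  refine ⟨_, ρ, ?_, fun k => ?_⟩
  · let f₀ : Δ → ℂ := fun x => if h : x ∈ Z then (χ ⟨x, h⟩ : ℂ) else 0
    have hf : f₀ ∈ V := by
      intro k x
      by_cases hx : x ∈ Z
      · simp only [f₀, dif_pos hx, dif_pos (Z.mul_mem k.2 hx)]
        rw [show (⟨(k : Δ) * x, Z.mul_mem k.2 hx⟩ : Z) = k * ⟨x, hx⟩ from rfl, map_mul, Units.val_mul]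
      · simp only [f₀, dif_neg hx, dif_neg (fun h : (k : Δ) * x ∈ Z => hx ((Z.mul_mem_cancel_left k.2).mp h)), mul_zero]
    refine Nat.pos_of_ne_zero fun h0 => ?_
    haveI : Subsingleton V := Module.finrank_zero_iff.mp h0
    have h1 := congrArg (fun f : V => (f : Δ → ℂ) 1) (Subsingleton.elim (⟨f₀, hf⟩ : V) 0)
    simp [f₀, show (⟨1, Z.one_mem⟩ : Z) = 1 from rfl] at h1
  · refine Units.ext ?_
    show e (R k) = Matrix.scalar _ (χ k : ℂ)
    have h1 : R k = (χ k : ℂ) • (1 : Module.End ℂ V) := LinearMap.ext fun f => Subtype.ext (funext fun x => by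
      show (f : Δ → ℂ) (x * k) = (χ k : ℂ) * (f : Δ → ℂ) x
      rw [mem_center_iff.mp (hZ k.2) x]
      exact f.2 k x)
    rw [h1, map_smul, map_one]
    ext i j
    simp [Matrix.one_apply, Matrix.diagonal_apply]

theorem divisible_units : Module.Baer ℤ (Additive ℂˣ) := by
  haveI : RootableBy ℂˣ ℕ :=
    rootableByOfPowLeftSurj _ _ fun {k} hk u => by
      obtain ⟨z, hz⟩ := IsAlgClosed.exists_pow_nat_eq (u : ℂ) (Nat.pos_of_ne_zero hk)
      have hz0 : z ≠ 0 := fun h => u.ne_zero (by rw [← hz, h, zero_pow hk])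
      exact ⟨Units.mk0 z hz0, Units.ext hz⟩
  letI : RootableBy ℂˣ ℤ := Group.rootableByIntOfRootableByNat ℂˣ
  letI : DivisibleBy (Additive ℂˣ) ℤ :=
    { div := fun a k => Additive.ofMul (RootableBy.root (Additive.toMul a) k)
      div_zero := fun a => congrArg Additive.ofMul (RootableBy.root_zero (Additive.toMul a))
      div_cancel := fun {k} a hk => congrArg Additive.ofMul (RootableBy.root_cancel (Additive.toMul a) hk) }
  exact Module.Baer.of_divisible _

/-- Characters of a subgroup meeting the commutator subgroup trivially extend. -/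
theorem exists_extend {E : Type u} [Group E] {C : Subgroup E} (hC : C ⊓ _root_.commutator E = ⊥)
    (χ : C →* ℂˣ) : ∃ χ' : E →* ℂˣ, ∀ c : C, χ' c = χ c := by
  haveI : IsMulCommutative C := ⟨⟨fun a b => Subtype.ext (by
    have h1 : ⁅(a : E), (b : E)⁆ ∈ C ⊓ _root_.commutator E :=
      ⟨C.mul_mem (C.mul_mem (C.mul_mem a.2 b.2) (C.inv_mem a.2)) (C.inv_mem b.2), by
        rw [_root_.commutator_def]; exact commutator_mem_commutator (mem_top _) (mem_top _)⟩
    rw [hC, mem_bot, commutatorElement_eq_one_iff_mul_comm] at h1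
    exact h1)⟩⟩
  letI : CommGroup C := { (inferInstance : Group C) with mul_comm := fun a b => IsMulCommutative.is_comm.comm a b }
  let j : C →* Abelianization E := Abelianization.of.comp C.subtype
  have hj : Function.Injective j := by
    rw [← MonoidHom.ker_eq_bot_iff, eq_bot_iff]
    intro c hc
    have h1 : (c : E) ∈ C ⊓ _root_.commutator E :=
      ⟨c.2, by rw [← Abelianization.ker_of]; exact hc⟩
    rw [hC, mem_bot] at h1
    exact mem_bot.mpr (Subtype.ext h1)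
  obtain ⟨h, hh⟩ := divisible_units.extension_property_addMonoidHom (MonoidHom.toAdditive j) hj (MonoidHom.toAdditive χ)
  refine ⟨(MonoidHom.toAdditive.symm h).comp Abelianization.of, fun c => ?_⟩
  exact congrArg Additive.toMul (DFunLike.congr_fun hh (Additive.ofMul c))

/-- Lifting projective representations to a stem extension with the kernel of maximal order. -/
theorem exists_projective_lift {G : Type u} [Group G] [Finite G] {Γ : Type v} [Group Γ] [Finite Γ] (σ : Γ →* G)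
    (hσ : Cfsg.IsStemExtension σ) (hcard : Nat.card (M G) ≤ Nat.card σ.ker) (n : ℕ)
    (γ : G →* GL (Fin n) ℂ ⧸ center (GL (Fin n) ℂ)) :
    ∃ ρ : Γ →* GL (Fin n) ℂ, (QuotientGroup.mk' (center (GL (Fin n) ℂ))).comp ρ = γ.comp σ := by
  rcases Nat.eq_zero_or_pos n with rfl | hn
  · exact ⟨1, MonoidHom.ext fun x => Quotient.inductionOn' ((γ.comp σ) x) (fun y => by
      rw [Subsingleton.elim y 1]; rfl)⟩
  obtain ⟨φ, hφ⟩ := exists_lift (id : G → G) (MonoidHom.id G) σ hσ.1 hσ.2.1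
  rw [MonoidHom.id_comp] at hφ
  obtain ⟨hφs, hmap⟩ := lift_surjective id (closure_range_id G) hσ hφ
  let φM : mult (id : G → G) →* σ.ker :=
    MonoidHom.codRestrict (φ.comp (mult (id : G → G)).subtype) σ.ker fun m => hmap.le ⟨m, m.2, rfl⟩
  have hφMs : Function.Surjective φM := by
    rintro ⟨z, hz⟩
    obtain ⟨m, hm, rfl⟩ := hmap.ge hz
    exact ⟨⟨m, hm⟩, rfl⟩
  have hφMi : Function.Injective φM := (hφMs.bijective_of_nat_card_le hcard).1
  have hkerK : φ.ker ≤ (proj (id : G → G)).ker := fun x hx => by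
    rw [MonoidHom.mem_ker, ← hφ, MonoidHom.comp_apply, MonoidHom.mem_ker.mp hx, map_one]
  have hdisj : φ.ker ⊓ _root_.commutator (Src (id : G → G)) = ⊥ := by
    rw [eq_bot_iff]
    rintro x ⟨hx, hxc⟩
    have := @hφMi ⟨x, hkerK hx, hxc⟩ 1 (Subtype.ext (by simpa [φM] using hx))
    exact mem_bot.mpr (congrArg Subtype.val this)
  -- a lift of the projective representation
  obtain ⟨ψ, hψ⟩ := exists_lift (id : G → G) γ.rangeRestrict
    ((QuotientGroup.mk' (center (GL (Fin n) ℂ))).subgroupComap γ.range) (by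
      rintro ⟨q, hq⟩
      obtain ⟨x, rfl⟩ := QuotientGroup.mk'_surjective _ q
      exact ⟨⟨x, hq⟩, rfl⟩) (fun x hx => mem_center_iff.mpr fun y => Subtype.ext
        (mem_center_iff.mp ((QuotientGroup.eq_one_iff _).mp (congrArg Subtype.val hx)) y))
  let ψ₀ : Src (id : G → G) →* GL (Fin n) ℂ := (Subgroup.subtype _).comp ψ
  have hψ₀ : ∀ x, QuotientGroup.mk' _ (ψ₀ x) = γ (proj id x) := fun x =>
    congrArg Subtype.val (DFunLike.congr_fun hψ x)
  have hinj : Function.Injective (Matrix.GeneralLinearGroup.scalar (Fin n) : ℂˣ →* GL (Fin n) ℂ) := by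
    haveI : Nonempty (Fin n) := ⟨⟨0, hn⟩⟩
    intro a b hab
    have := congrArg (fun g : GL (Fin n) ℂ => g.val) hab
    exact Units.ext (Matrix.scalar_inj.mp (this : Matrix.scalar (Fin n) (a : ℂ) = Matrix.scalar (Fin n) (b : ℂ)))
  have hcen : ∀ c : φ.ker, ψ₀ c ∈ (Matrix.GeneralLinearGroup.scalar (Fin n) : ℂˣ →* GL (Fin n) ℂ).range := fun c => by
    rw [← Matrix.GeneralLinearGroup.center_eq_range_scalar]
    refine (QuotientGroup.eq_one_iff _).mp ?_
    rw [← QuotientGroup.mk'_apply, hψ₀, MonoidHom.mem_ker.mp (hkerK c.2), map_one]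
  let χ : φ.ker →* ℂˣ :=
    (MonoidHom.ofInjective hinj).symm.toMonoidHom.comp
      (MonoidHom.codRestrict (ψ₀.comp φ.ker.subtype) _ hcen)
  obtain ⟨χ', hχ'⟩ := exists_extend hdisj χ
  have hsc : ∀ a : ℂˣ, Matrix.GeneralLinearGroup.scalar (Fin n) a ∈ center (GL (Fin n) ℂ) := fun a => by
    rw [Matrix.GeneralLinearGroup.center_eq_range_scalar]; exact ⟨a, rfl⟩
  let r : Src (id : G → G) →* GL (Fin n) ℂ :=
    MonoidHom.mk' (fun x => ψ₀ x * (Matrix.GeneralLinearGroup.scalar (Fin n) (χ' x))⁻¹) (fun x y => by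
      rw [map_mul, map_mul, map_mul, mul_inv_rev]
      have c := fun w => mem_center_iff.mp (inv_mem (hsc (χ' x))) w
      calc ψ₀ x * ψ₀ y * ((Matrix.GeneralLinearGroup.scalar (Fin n) (χ' y))⁻¹ * (Matrix.GeneralLinearGroup.scalar (Fin n) (χ' x))⁻¹)
          = ψ₀ x * ((ψ₀ y * (Matrix.GeneralLinearGroup.scalar (Fin n) (χ' y))⁻¹) * (Matrix.GeneralLinearGroup.scalar (Fin n) (χ' x))⁻¹) := by group
        _ = ψ₀ x * ((Matrix.GeneralLinearGroup.scalar (Fin n) (χ' x))⁻¹ * (ψ₀ y * (Matrix.GeneralLinearGroup.scalar (Fin n) (χ' y))⁻¹)) := by rw [c]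
        _ = ψ₀ x * (Matrix.GeneralLinearGroup.scalar (Fin n) (χ' x))⁻¹ * (ψ₀ y * (Matrix.GeneralLinearGroup.scalar (Fin n) (χ' y))⁻¹) := by group)
  have hr : φ.ker ≤ r.ker := fun c hc => by
    show ψ₀ c * (Matrix.GeneralLinearGroup.scalar (Fin n) (χ' c))⁻¹ = 1
    rw [hχ' ⟨c, hc⟩, mul_inv_eq_one]
    exact (MonoidHom.apply_ofInjective_symm hinj ⟨ψ₀ c, hcen ⟨c, hc⟩⟩).symm
  refine ⟨φ.liftOfSurjective hφs ⟨r, hr⟩, MonoidHom.ext fun x => ?_⟩
  obtain ⟨y, rfl⟩ := hφs x
  rw [MonoidHom.comp_apply, MonoidHom.comp_apply, MonoidHom.liftOfRightInverse_comp_apply]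
  show QuotientGroup.mk' _ (ψ₀ y * _) = γ ((σ.comp φ) y)
  rw [hφ, map_mul, map_inv, show QuotientGroup.mk' (center (GL (Fin n) ℂ)) (Matrix.GeneralLinearGroup.scalar (Fin n) (χ' y)) = 1
    from (QuotientGroup.eq_one_iff _).mpr (hsc _), inv_one, mul_one, hψ₀]

/-- A stem extension through which all projective representations lift has the largest kernel. -/
theorem ker_surjection_of_lifts {G : Type u} [Group G] [Finite G] {Γ : Type v} [Group Γ] (σ : Γ →* G)
    (hσ : Cfsg.IsStemExtension σ)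
    (hlift : ∀ (n : ℕ) (γ : G →* GL (Fin n) ℂ ⧸ center (GL (Fin n) ℂ)),
      ∃ ρ : Γ →* GL (Fin n) ℂ, (QuotientGroup.mk' (center (GL (Fin n) ℂ))).comp ρ = γ.comp σ)
    {Δ : Type w} [Group Δ] [Finite Δ] (τ : Δ →* G) (hτ : Cfsg.IsStemExtension τ) :
    ∃ π : σ.ker →* τ.ker, Function.Surjective π := by
  obtain ⟨φ, hφ⟩ := exists_lift (id : G → G) (MonoidHom.id G) σ hσ.1 hσ.2.1
  obtain ⟨ψ, hψ⟩ := exists_lift (id : G → G) (MonoidHom.id G) τ hτ.1 hτ.2.1
  rw [MonoidHom.id_comp] at hφ hψ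
  refine exists_ker_surjection hσ hτ hφ hψ fun m hm hφm => ?_
  by_contra hne
  letI : CommGroup τ.ker :=
    { (inferInstance : Group τ.ker) with
      mul_comm := fun a b => Subtype.ext ((mem_center_iff.mp (hτ.2.1 a.2) b).symm) }
  have hd : ψ m ∈ τ.ker := by
    rw [MonoidHom.mem_ker, ← MonoidHom.comp_apply, hψ]; exact hm.1
  haveI : NeZero ((Monoid.exponent τ.ker : ℕ) : ℂ) :=
    ⟨Nat.cast_ne_zero.mpr Monoid.exponent_ne_zero_of_finite⟩
  obtain ⟨χ, hχ⟩ := CommGroup.exists_apply_ne_one_of_hasEnoughRootsOfUnity τ.ker ℂ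
    (a := ⟨ψ m, hd⟩) (fun h => hne (congrArg Subtype.val h))
  obtain ⟨n, ρ, hn, hρ⟩ := exists_rep_character hτ.2.1 χ
  have hsc : ∀ a : ℂˣ, Matrix.GeneralLinearGroup.scalar (Fin n) a ∈ center (GL (Fin n) ℂ) := fun a => by
    rw [Matrix.GeneralLinearGroup.center_eq_range_scalar]; exact ⟨a, rfl⟩
  have hker : τ.ker ≤ ((QuotientGroup.mk' (center (GL (Fin n) ℂ))).comp ρ).ker := fun k hk => by
    rw [MonoidHom.mem_ker, MonoidHom.comp_apply, show ρ k = _ from hρ ⟨k, hk⟩]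
    exact (QuotientGroup.eq_one_iff _).mpr (hsc _)
  obtain ⟨ρ', hρ'⟩ := hlift n (τ.liftOfSurjective hτ.1 ⟨_, hker⟩)
  have heq : (QuotientGroup.mk' (center (GL (Fin n) ℂ))).comp (ρ'.comp φ) =
      (QuotientGroup.mk' (center (GL (Fin n) ℂ))).comp (ρ.comp ψ) := MonoidHom.ext fun x => by
    rw [← MonoidHom.comp_assoc, hρ', MonoidHom.comp_assoc, hφ, MonoidHom.comp_apply, ← DFunLike.congr_fun hψ x]
    exact MonoidHom.liftOfRightInverse_comp_apply _ _ _ _ (ψ x)
  have := eqOn_commutator _ (by rw [QuotientGroup.ker_mk']) heq m hm.2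
  rw [MonoidHom.comp_apply, MonoidHom.comp_apply, hφm, map_one, show ρ (ψ m) = _ from hρ ⟨ψ m, hd⟩] at this
  refine hχ (Units.ext ?_)
  haveI hne' : Nonempty (Fin n) := ⟨⟨0, hn⟩⟩
  have h2 := congrArg (fun g : GL (Fin n) ℂ => g.val) this.symm
  exact Matrix.scalar_inj.mp (show Matrix.scalar (Fin n) ((χ ⟨ψ m, hd⟩ : ℂˣ) : ℂ) = Matrix.scalar (Fin n) 1 by
    rw [map_one]; simpa using h2)

end CfsgLib.Schur
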