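import Cfsg.Agent.Lib.Schur.Core
import Mathlib.GroupTheory.Transfer
import Mathlib.GroupTheory.FreeGroup.NielsenSchreier
import Mathlib.Algebra.BigOperators.Group.Finset.Basic
import Mathlib.Tactic

/-! Restriction and corestriction between the multiplier of a group and that of a subgroup. -/

set_option autoImplicit false

namespace CfsgLib.Schur.Restrict

open Subgroup
open scoped commutatorElement

universe u

/-- The transfer of an element of a normal subgroup contained in the subgroup transferred to. -/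
theorem transfer_of_normal {F A : Type*} [Group F] [CommGroup A] {S : Subgroup F} [S.FiniteIndex]
    (φ : S →* A) {R : Subgroup F} [R.Normal] (hR : R ≤ S) {x : F} (hx : x ∈ R) :
    letI := S.fintypeQuotientOfFiniteIndex
    MonoidHom.transfer φ x =
      ∏ q : F ⧸ S, φ ⟨q.out⁻¹ * x * q.out, hR (by simpa using ‹R.Normal›.conj_mem x hx q.out⁻¹)⟩ := by
  letI := S.fintypeQuotientOfFiniteIndex
  let T : S.LeftTransversal := ⟨Set.range Quotient.out, isComplement_range_left fun q => QuotientGroup.out_eq' q⟩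
  rw [MonoidHom.transfer_def φ T x]
  refine Finset.prod_congr rfl fun q _ => congrArg φ (Subtype.ext ?_)
  have h1 : ∀ r : F ⧸ S, ((T.2.leftQuotientEquiv r : T.1) : F) = r.out :=
    IsComplement.leftQuotientEquiv_apply fun q => QuotientGroup.out_eq' q
  have hq : x⁻¹ • q = q := by
    induction q using QuotientGroup.induction_on with
    | H a =>
      refine QuotientGroup.eq.mpr ?_
      show (x⁻¹ * a)⁻¹ * a ∈ S
      have := hR (‹R.Normal›.conj_mem x hx a⁻¹)
      simpa [mul_assoc] using this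
  show ((T.2.leftQuotientEquiv q : T.1) : F)⁻¹ * (((x • T).2.leftQuotientEquiv q : (x • T).1) : F) = q.out⁻¹ * x * q.out
  rw [Subgroup.smul_apply_eq_smul_apply_inv_smul, hq, h1, smul_eq_mul, mul_assoc]

variable {G : Type u} [Group G] [Finite G]

/-- Maps between the multipliers whose composite is the index power. -/
theorem exists_maps (U : Subgroup G) :
    ∃ (c : mult (id : U → U) →* mult (id : G → G)) (ν : mult (id : G → G) →* mult (id : U → U)),
      ∀ m, c (ν m) = m ^ U.index := by
  classical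
  let pG : FreeGroup G →* G := FreeGroup.lift id
  let S : Subgroup (FreeGroup G) := U.comap pG
  have hsurj : Function.Surjective pG := fun g => ⟨FreeGroup.of g, by simp [pG]⟩
  have hidx : S.index = U.index := U.index_comap_of_surjective hsurj
  haveI : S.FiniteIndex := ⟨by rw [hidx]; exact U.index_ne_zero_of_finite⟩
  letI := S.fintypeQuotientOfFiniteIndex
  let q : S →* U := pG.subgroupComap U
  set g : U → U := id with hg
  have hgs : Function.Surjective (proj g) := proj_surjective g (by simp [g])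
  choose sec hsec using hgs
  let Ψ : S →* Src g := IsFreeGroup.lift fun a => sec (q (IsFreeGroup.of a))
  have hΨ : (proj g).comp Ψ = q := IsFreeGroup.ext_hom fun a => by
    simp [Ψ, IsFreeGroup.lift_of, hsec]
  set R := relators (id : G → G) with hRdef
  haveI hRn : R.Normal := MonoidHom.normal_ker _
  have hRS : R ≤ S := fun x hx => by
    show pG x ∈ U
    rw [show pG x = 1 from hx]; exact one_mem U
  letI : CommGroup (proj g).ker :=
    { (inferInstance : Group (proj g).ker) with mul_comm := fun a b => (kerComm g).is_comm.comm a b }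
  let cj : FreeGroup G → R →* S := fun a =>
    { toFun := fun r => ⟨a⁻¹ * r * a, hRS (by simpa using hRn.conj_mem r r.2 a⁻¹)⟩
      map_one' := Subtype.ext (by simp)
      map_mul' := fun r r' => Subtype.ext (by simp [mul_assoc]) }
  have hcjker : ∀ a r, Ψ (cj a r) ∈ (proj g).ker := fun a r => by
    rw [MonoidHom.mem_ker, ← MonoidHom.comp_apply, hΨ]
    refine Subtype.ext ?_
    show pG (a⁻¹ * r * a) = 1
    rw [map_mul, map_mul, show pG r = 1 from r.2, mul_one, map_inv, inv_mul_cancel]
  let θ : FreeGroup G → R →* (proj g).ker := fun a => (Ψ.comp (cj a)).codRestrict _ (hcjker a)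
  have hθ : ∀ a b : FreeGroup G, (a : FreeGroup G ⧸ S) = b → θ a = θ b := fun a b hab => by
    refine MonoidHom.ext fun r => Subtype.ext ?_
    show Ψ (cj a r) = Ψ (cj b r)
    have hs : a⁻¹ * b ∈ S := QuotientGroup.eq.mp hab
    have e : cj b r = (⟨a⁻¹ * b, hs⟩ : S)⁻¹ * cj a r * ⟨a⁻¹ * b, hs⟩ := Subtype.ext (by
      show b⁻¹ * (r : FreeGroup G) * b = (a⁻¹ * b)⁻¹ * (a⁻¹ * r * a) * (a⁻¹ * b)
      group)
    rw [e, map_mul, map_mul, map_inv, mul_assoc, ← mem_center_iff.mp (ker_le_center g (hcjker a r)), inv_mul_cancel_left]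
  let ν₀ : R →* (proj g).ker := ∏ c : FreeGroup G ⧸ S, θ c.out
  have hν₀ : ∀ r, ν₀ r = ∏ c : FreeGroup G ⧸ S, θ c.out r := fun r => MonoidHom.finsetProd_apply _ _ r
  have hinv : ∀ (y : FreeGroup G) (r : R), ν₀ ⟨y * r * y⁻¹, hRn.conj_mem r r.2 y⟩ = ν₀ r := fun y r => by
    rw [hν₀, hν₀]
    refine Fintype.prod_equiv (MulAction.toPerm y⁻¹) _ _ fun c => ?_
    show θ c.out _ = θ (y⁻¹ • c).out r
    have h1 : (((y⁻¹ • c).out : FreeGroup G) : FreeGroup G ⧸ S) = ((y⁻¹ * c.out : FreeGroup G) : FreeGroup G ⧸ S) := by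
      rw [QuotientGroup.out_eq', ← smul_eq_mul, MulAction.Quotient.mk_smul_out]
    rw [hθ _ _ h1]
    refine Subtype.ext (congrArg Ψ (Subtype.ext ?_))
    show (c.out : FreeGroup G)⁻¹ * (y * r * y⁻¹) * c.out = (y⁻¹ * c.out)⁻¹ * r * (y⁻¹ * c.out)
    group
  have hkill : ⁅R, (⊤ : Subgroup (FreeGroup G))⁆ ≤ ν₀.ker.map R.subtype := by
    rw [commutator_le]
    intro r hr y _
    refine ⟨⟨r, hr⟩ * ⟨y * r⁻¹ * y⁻¹, hRn.conj_mem _ (inv_mem hr) y⟩, ?_, ?_⟩
    · rw [SetLike.mem_coe, MonoidHom.mem_ker, map_mul]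
      have := hinv y ⟨r⁻¹, inv_mem hr⟩
      rw [this, ← map_mul, show (⟨r, hr⟩ : R) * ⟨r⁻¹, inv_mem hr⟩ = 1 from Subtype.ext (mul_inv_cancel r), map_one]
    · show r * (y * r⁻¹ * y⁻¹) = ⁅r, y⁆
      rw [commutatorElement_def]; group
  -- representatives
  have hrep : ∀ m : mult (id : G → G), ∃ x : R, (x : FreeGroup G) ∈ _root_.commutator (FreeGroup G) ∧
      QuotientGroup.mk (x : FreeGroup G) = (m : Src (id : G → G)) := by
    rintro ⟨m, hm1, hm2⟩
    have h2 : _root_.commutator (Src (id : G → G)) ≤ (_root_.commutator (FreeGroup G)).map (QuotientGroup.mk' _) := by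
      rw [_root_.commutator_def, _root_.commutator_def, Subgroup.map_commutator,
        Subgroup.map_top_of_surjective _ (QuotientGroup.mk'_surjective _)]
    obtain ⟨x, hx, rfl⟩ := h2 hm2
    exact ⟨⟨x, hm1⟩, hx, rfl⟩
  choose rep hrep1 hrep2 using hrep
  have hwd : ∀ r r' : R, (QuotientGroup.mk (r : FreeGroup G) : Src (id : G → G)) = QuotientGroup.mk (r' : FreeGroup G) → ν₀ r = ν₀ r' := by
    intro r r' h
    obtain ⟨k, hk, hk'⟩ := hkill (QuotientGroup.eq.mp h)
    rw [show r' = r * k from Subtype.ext (by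
      show (r' : FreeGroup G) = r * (R.subtype k)
      rw [hk', mul_inv_cancel_left]), map_mul, show ν₀ k = 1 from hk, mul_one]
  have hder : ∀ r : R, (r : FreeGroup G) ∈ _root_.commutator (FreeGroup G) → (ν₀ r : Src g) ∈ _root_.commutator (Src g) := by
    intro r hr
    rw [← Abelianization.ker_of, MonoidHom.mem_ker]
    show ((Abelianization.of (G := Src g)).comp (proj g).ker.subtype) (ν₀ r) = 1
    rw [hν₀, map_prod]
    have h := transfer_of_normal ((Abelianization.of (G := Src g)).comp Ψ) hRS r.2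
    rw [MonoidHom.mem_ker.mp (Abelianization.commutator_subset_ker _ hr)] at h
    exact h.symm
  let ν : mult (id : G → G) →* mult g := MonoidHom.mk' (fun m => ⟨(ν₀ (rep m) : Src g), (ν₀ (rep m)).2, hder _ (hrep1 m)⟩)
    fun a b => Subtype.ext (by
      show ((ν₀ (rep (a * b)) : (proj g).ker) : Src g) = (ν₀ (rep a) : Src g) * (ν₀ (rep b) : Src g)
      rw [← Subgroup.coe_mul, ← map_mul]
      refine congrArg Subtype.val (hwd _ _ ?_)
      rw [hrep2, Subgroup.coe_mul, Subgroup.coe_mul, QuotientGroup.mk_mul, hrep2, hrep2])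
  -- corestriction
  obtain ⟨φ', hφ'⟩ := exists_lift g U.subtype (proj (id : G → G)) (proj_surjective _ (by simp)) (ker_le_center _)
  let c : mult g →* mult (id : G → G) := (φ'.comp (mult g).subtype).codRestrict _ fun m => ⟨by
    show proj (id : G → G) (φ' m) = 1
    rw [← MonoidHom.comp_apply, hφ', MonoidHom.comp_apply, MonoidHom.mem_ker.mp m.2.1, map_one], by
    have h2 : (_root_.commutator (Src g)).map φ' ≤ _root_.commutator (Src (id : G → G)) := by
      rw [_root_.commutator_def, _root_.commutator_def, Subgroup.map_commutator]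
      exact commutator_mono le_top le_top
    exact h2 ⟨m, m.2.2, rfl⟩⟩
  refine ⟨c, ν, fun m => Subtype.ext ?_⟩
  show φ' (ν₀ (rep m) : Src g) = ((m ^ U.index : mult (id : G → G)) : Src (id : G → G))
  letI : CommGroup (proj (id : G → G)).ker :=
    { (inferInstance : Group (proj (id : G → G)).ker) with mul_comm := fun a b => (kerComm (id : G → G)).is_comm.comm a b }
  let η₂ : S →* Src (id : G → G) := (QuotientGroup.mk' _).comp S.subtype
  have hz : ∀ s : S, φ' (Ψ s) * (η₂ s)⁻¹ ∈ (proj (id : G → G)).ker := fun s => by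
    rw [MonoidHom.mem_ker, map_mul, map_inv, ← MonoidHom.comp_apply (proj (id : G → G)) φ', hφ',
      MonoidHom.comp_apply, ← MonoidHom.comp_apply (proj g) Ψ, hΨ]
    exact mul_inv_cancel _
  let δ : S →* (proj (id : G → G)).ker := MonoidHom.mk' (fun s => ⟨φ' (Ψ s) * (η₂ s)⁻¹, hz s⟩) fun s t => Subtype.ext (by
    show φ' (Ψ (s * t)) * (η₂ (s * t))⁻¹ = φ' (Ψ s) * (η₂ s)⁻¹ * (φ' (Ψ t) * (η₂ t)⁻¹)
    rw [map_mul, map_mul, map_mul, mul_inv_rev,
      show φ' (Ψ s) * φ' (Ψ t) * ((η₂ t)⁻¹ * (η₂ s)⁻¹) = φ' (Ψ s) * (φ' (Ψ t) * (η₂ t)⁻¹ * (η₂ s)⁻¹) by group,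
      ← mem_center_iff.mp (ker_le_center _ (hz t)) (η₂ s)⁻¹, mul_assoc])
  set x := rep m with hx
  have h := transfer_of_normal δ hRS x.2
  rw [MonoidHom.mem_ker.mp (Abelianization.commutator_subset_ker _ (hrep1 m))] at h
  let mK : (proj (id : G → G)).ker := ⟨(m : Src (id : G → G)), m.2.1⟩
  let φK : (proj g).ker →* (proj (id : G → G)).ker := (φ'.comp (proj g).ker.subtype).codRestrict _ fun k => by
    show proj (id : G → G) (φ' k) = 1
    rw [← MonoidHom.comp_apply, hφ', MonoidHom.comp_apply, MonoidHom.mem_ker.mp k.2, map_one]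
  have key : φK (ν₀ x) = mK ^ U.index := by
    rw [hν₀, map_prod]
    have e : ∀ q : FreeGroup G ⧸ S, φK (θ q.out x) = δ (cj q.out x) * mK := fun q => Subtype.ext (by
      show φ' (Ψ (cj q.out x)) = φ' (Ψ (cj q.out x)) * (η₂ (cj q.out x))⁻¹ * m
      have hm : η₂ (cj q.out x) = m := by
        show (QuotientGroup.mk ((q.out : FreeGroup G)⁻¹ * x * q.out) : Src (id : G → G)) = m
        rw [QuotientGroup.mk_mul, QuotientGroup.mk_mul, hrep2, QuotientGroup.mk_inv, mul_assoc,
          ← mem_center_iff.mp (ker_le_center _ m.2.1), inv_mul_cancel_left]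
      rw [hm, inv_mul_cancel_right])
    rw [Finset.prod_congr rfl fun q _ => e q, Finset.prod_mul_distrib, Finset.prod_const, Finset.card_univ,
      ← Nat.card_eq_fintype_card, ← Subgroup.index_eq_card, hidx]
    rw [show ∏ q : FreeGroup G ⧸ S, δ (cj q.out x) = 1 from h.symm, one_mul]
  exact congrArg Subtype.val key

end CfsgLib.Schur.Restrict
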